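import Cfsg.Agent.Lib.Perm.SymDes
import Cfsg.Agent.Lib.Perm.ONan5
import Cfsg.Agent.Lib.Core.Fitting

/-!
# Ito's theorem on 2-transitive symmetric designs with a perspectivity
-/

set_option autoImplicit false

namespace Cfsg.Lib.Perm

open MulAction Subgroup Cfsg.Lib.Core

theorem fix_of_normal_of_one_fixed {H X : Type*} [Group H] [Finite H] [MulAction H X] [Finite X] [IsPretransitive H X]
    (N : Subgroup H) [N.Normal] (h : ∀ n ∈ N, n ≠ 1 → Nat.card (fixedBy X n) = 1) (x : X) : ∀ n ∈ N, n • x = x := by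
  classical
  haveI := Fintype.ofFinite N
  have h1 := sum_card_fixedBy (G := N) (α := X)
  have h0 : ∀ n ∈ Finset.univ.erase (1 : N), Nat.card (fixedBy X n) = 1 := fun n hn =>
    h n n.2 fun e => (Finset.mem_erase.1 hn).1 (Subtype.ext e)
  rw [← Finset.add_sum_erase _ _ (Finset.mem_univ 1), Finset.sum_congr rfl h0, Finset.sum_const,
    Finset.card_erase_of_mem (Finset.mem_univ _), fixedBy_one_eq_univ, Nat.card_univ, Finset.card_univ,
    ← Nat.card_eq_fintype_card, smul_eq_mul, mul_one] at h1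
  have h2 : (orbit N x).ncard ∣ Nat.card X := (IsBlock.orbit_of_normal x).ncard_dvd_card ⟨x, mem_orbit_self x⟩
  have h3 : (orbit N x).ncard ∣ Nat.card N := by
    rw [← index_stabilizer]
    exact index_dvd_card _
  have h4 : Nat.card X + Nat.card N = Nat.card (orbitRel.Quotient N X) * Nat.card N + 1 := by
    have := Nat.card_pos (α := N)
    omega
  have h5 := (Nat.dvd_add_right (h3.mul_left _)).1 (h4 ▸ dvd_add h2 h3)
  obtain ⟨y, hy⟩ := Set.ncard_eq_one.1 (Nat.dvd_one.1 h5)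
  intro n hn
  exact (hy.le (mem_orbit x (⟨n, hn⟩ : N))).trans (hy.le (mem_orbit_self x)).symm

namespace Sym

variable {G Ω Y : Type*} [Group G] [MulAction G Ω] [MulAction G Y] [Finite G] [Finite Ω] [Finite Y] (D : Sym G Ω Y)

include D in
theorem proj_of_fitting (hf : ∀ g : G, (∀ a : Ω, g • a = a) → g = 1) (y : Y) (T : Subgroup G)
    (h1 : ∀ t ∈ T, t • y = y) (h2 : ∀ g : G, g • y = y → ∀ t ∈ T, g * t * g⁻¹ ∈ T) (h3 : fittingOf T ≠ ⊥) {a : Ω}
    (ha : ∀ t ∈ T, t • a = a) {g : G} (hg : g • y = y) (hga : g • a ≠ a) :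
    ∃ (K : Type) (_ : Field K) (_ : Fintype K) (n : ℕ), 3 ≤ n ∧ Nonempty (ON.Proj G Y K n) := by
  have hn : ∀ g : G, g • y = y → ∀ t ∈ fittingOf T, g * t * g⁻¹ ∈ fittingOf T := fun g hg t ht =>
    (mem_normalizer_iff.1 (normalizer_le_normalizer_fittingOf T (mem_normalizer_fintype (h2 g hg))) t).1 ht
  refine ON.onan (D.faith hf) D.two_blk y (fittingOf T ⊓ centralizer (fittingOf T))
    (fun t ht => h1 t (fittingOf_le T ht.1)) (fun g hg t ht => ⟨hn g hg t ht.1, fun s hs => ?_⟩)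
    (fun s hs t ht => ht.2 s hs.1) ?_
  · have := ht.2 _ (hn g⁻¹ (inv_smul_eq_iff.2 hg.symm) s hs)
    calc s * (g * t * g⁻¹) = g * (g⁻¹ * s * g⁻¹⁻¹ * t) * g⁻¹ := by group
      _ = _ := by rw [this]; group
  haveI := (nontrivial_iff_ne_bot _).2 h3
  obtain ⟨z, hz⟩ := ne_bot_iff_exists_ne_one.1 (Group.IsNilpotent.center_ne_bot (fittingOf T))
  have hzT := fittingOf_le T z.1.2
  refine ⟨z.1.1, ⟨z.1.2, fun s hs => congrArg Subtype.val (mem_center_iff.1 z.2 ⟨s, hs⟩)⟩,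
    fun e => hz (Subtype.ext (Subtype.ext e)), ?_⟩
  have e : z.1.1 • g • a = g • a := by
    have := ha _ (h2 g⁻¹ (inv_smul_eq_iff.2 hg.symm) _ hzT)
    rwa [mul_smul, mul_smul, inv_inv, inv_smul_eq_iff] at this
  have : 1 < (fixedBy Y z.1.1).ncard := by
    rw [← Nat.card_coe_set_eq, ← D.fix_eq, Nat.card_coe_set_eq]
    exact (Set.one_lt_ncard (Set.toFinite _)).2 ⟨_, e, a, ha _ hzT, hga⟩
  obtain ⟨w, hw, h⟩ := Set.exists_ne_of_one_lt_ncard this y
  exact ⟨w, h, hw⟩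

omit [Finite G] [Finite Ω] [Finite Y] in
theorem ncard_smul (g : G) (y z : Y) :
    {a | D.I a (g • y) ∧ D.I a (g • z)}.ncard = {a | D.I a y ∧ D.I a z}.ncard :=
  (Set.ncard_congr (fun a _ => g • a) (fun a h => by simpa [D.inv] using h) (fun a b _ _ e => MulAction.injective g e)
    fun b h => ⟨g⁻¹ • b, by simpa [D.inv'] using h, smul_inv_smul _ _⟩).symm

theorem meet {y z y' z' : Y} (h : y ≠ z) (h' : y' ≠ z') :
    {a | D.I a y ∧ D.I a z}.ncard = {a | D.I a y' ∧ D.I a z'}.ncard := by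
  obtain ⟨g, rfl, rfl⟩ := D.two_blk y z y' z' h h'
  rw [D.ncard_smul]

theorem meet_sub {y z y' z' : Y} (h : y ≠ z) (h' : y' ≠ z') (hs : ∀ a, D.I a y → D.I a z → D.I a y' ∧ D.I a z') :
    ∀ a, D.I a y' → D.I a z' → D.I a y ∧ D.I a z := fun a h1 h2 =>
  (Set.eq_of_subset_of_ncard_le (s := {a | D.I a y ∧ D.I a z}) (t := {a | D.I a y' ∧ D.I a z'})
    (fun a ha => hs a ha.1 ha.2) (D.meet h' h).le).ge ⟨h1, h2⟩

theorem fix_blk {B : Y} {x : G} (hx : ∀ a, D.I a B → x • a = a) : x • B = B := by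
  by_contra hne
  obtain ⟨a, h1, h2⟩ := D.dual.exists_sep (Ne.symm hne)
  exact h2 (by rw [← hx a h1]; exact (D.inv _ _ _).2 h1)

theorem fix_of_mem {B C : Y} {x : G} (hx : ∀ a, D.I a B → x • a = a) {e : Ω} (he : ¬ D.I e B) (h1 : D.I e C)
    (h2 : D.I e (x • C)) : x • C = C := by
  by_contra hne
  refine he (D.meet_sub (fun e : B = C => he (e ▸ h1)) (Ne.symm hne) (fun a h3 h4 => ⟨h4, ?_⟩) e h1 h2).1
  rw [← hx a h3]
  exact (D.inv _ _ _).2 h4

/-- The design has at least two points on and two points off each block. -/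
structure NT (B : Y) : Prop where
  on : ∃ a b, a ≠ b ∧ D.I a B ∧ D.I b B
  off : ∃ a b, a ≠ b ∧ ¬ D.I a B ∧ ¬ D.I b B

variable {D}

omit [Finite G] [Finite Ω] [Finite Y] in
theorem NT.join {B : Y} (hB : D.NT B) (a b : Ω) : ∃ C, D.I a C ∧ D.I b C := by
  obtain ⟨c, d, hcd, h1, h2⟩ := hB.on
  by_cases h : a = b
  · obtain ⟨g, rfl⟩ := D.tr_pt c a
    exact ⟨g • B, (D.inv _ _ _).2 h1, h ▸ (D.inv _ _ _).2 h1⟩
  obtain ⟨g, rfl, rfl⟩ := D.two c d a b hcd h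
  exact ⟨g • B, (D.inv _ _ _).2 h1, (D.inv _ _ _).2 h2⟩

theorem NT.exists_off {B C : Y} (hB : D.NT B) (h : C ≠ B) (d : Ω) : ∃ c, c ≠ d ∧ D.I c C ∧ ¬ D.I c B := by
  obtain ⟨a, b, hab, h1, h2⟩ := hB.off
  obtain ⟨E, h3, h4⟩ := hB.join a b
  obtain ⟨g, rfl, e⟩ := D.two_blk E B C B (fun e => h1 (e ▸ h3)) h
  rw [← D.inv g, e] at h1 h2
  by_cases h : g • a = d
  · exact ⟨g • b, fun e => hab (MulAction.injective g (h.trans e.symm)), (D.inv _ _ _).2 h4, h2⟩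
  · exact ⟨g • a, h, (D.inv _ _ _).2 h3, h1⟩

theorem NT.eq_one (hf : ∀ g : G, (∀ a : Ω, g • a = a) → g = 1) {B : Y} (hB : D.NT B) {x : G}
    (hx : ∀ a, D.I a B → x • a = a) {e e' : Ω} (hne : e ≠ e') (he : ¬ D.I e B) (he' : ¬ D.I e' B) (h : x • e = e)
    (h' : x • e' = e') : x = 1 := by
  have f : ∀ e, ¬ D.I e B → x • e = e → ∀ C, D.I e C → x • C = C := fun e he h C hC =>
    D.fix_of_mem hx he hC (by rw [← h]; exact (D.inv _ _ _).2 hC)
  have f2 : ∀ d C, D.I d C → ¬ D.I e C → x • C = C → x • d = d := fun d C h1 h2 h3 =>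
    D.dual.fix_of_mem (f e he h) h2 h1 (by rw [← h3]; exact (D.inv _ _ _).2 h1)
  have f3 : ∀ d, x • d ≠ d → ∀ C, D.I e C → D.I e' C → D.I d C := fun d hd C h1 h2 =>
    (D.dual.meet_sub (fun e : d = e' => hd (e ▸ h')) hne
      (fun C h3 h4 => ⟨by_contra fun h5 => hd (f2 d C h3 h5 (f e' he' h' C h4)), h4⟩) C h1 h2).1
  refine hf x fun d => by_contra fun hd => ?_
  obtain ⟨C, h1, h2⟩ := D.exists_sep (fun e' : d = e => hd (e' ▸ h))
  obtain ⟨c, h3, h4, h5⟩ := hB.exists_off (fun e : C = B => hd (hx d (e ▸ h1))) d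
  by_cases hc : x • c = c
  · exact hd (f2 d C h1 h2 (f c h5 hc C h4))
  · exact h2 (D.dual.meet_sub hne h3 (fun C h6 h7 => ⟨f3 c hc C h6 h7, f3 d hd C h6 h7⟩) C h4 h1).1

theorem pencil {B C C' : Y} {x : G} (hx : ∀ a, D.I a B → x • a = a) (hx' : ∀ a, ¬ D.I a B → x • a ≠ a)
    (hC : C ≠ B) (hC' : C' ≠ B) (hp : ∀ a, D.I a B → (D.I a C ↔ D.I a C')) (h : x • C = C) : x • C' = C' := by
  classical
  haveI := Fintype.ofFinite Ω
  haveI := Fintype.ofFinite Y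
  by_contra hne
  let F : Finset Y := Finset.univ.filter fun E => x • E = E
  let m : Ω → ℕ := fun a => (F.filter fun E => D.I a E).card
  obtain ⟨a0, b0, -, -, hb⟩ := D.ex
  obtain ⟨c0, hc0⟩ := D.exists_ne a0
  have hm : ∀ a, ¬ D.I a B → m a = {E | D.I a0 E ∧ D.I c0 E}.ncard := fun a ha => by
    refine (Set.ncard_coe_finset _).symm.trans (Eq.trans ?_ (D.dual.meet (hx' a ha).symm hc0))
    congr 1
    ext E
    simp only [F, Finset.coe_filter, Finset.mem_filter, Finset.mem_univ, true_and, Set.mem_setOf_eq]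
    refine ⟨fun h => ⟨h.2, by rw [← h.1]; exact (D.inv _ _ _).2 h.2⟩, fun h => ⟨?_, h.1⟩⟩
    exact D.fix_of_mem hx (e := x • a) (fun e => ha (by rwa [← D.inv x, D.fix_blk hx])) h.2 ((D.inv _ _ _).2 h.1)
  have hN : ∀ C, ∑ E ∈ F, {a | D.I a C ∧ D.I a E}.ncard = ∑ a with D.I a C, m a := fun C => by
    simp only [m, Finset.card_filter]
    rw [Finset.sum_comm]
    refine Finset.sum_congr rfl fun E _ => ?_
    rw [← Finset.card_filter, ← Set.ncard_coe_finset]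
    congr 1
    ext a
    simp
  have hk : ∀ C, C ≠ B → (Finset.univ.filter fun a => D.I a C ∧ ¬ D.I a B).card + {a | D.I a C ∧ D.I a B}.ncard =
      {a | D.I a C ∧ D.I a C}.ncard := fun C _ => by
    rw [← Set.ncard_coe_finset, ← Set.ncard_union_eq (Set.disjoint_left.2 fun a h1 h2 => by
      simp only [Finset.coe_filter, Set.mem_setOf_eq] at h1; exact h1.2.2 h2.2)]
    congr 1
    ext a
    simp only [Finset.coe_filter, Finset.mem_univ, true_and, Set.mem_union, Set.mem_setOf_eq]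
    tauto
  obtain ⟨g, rfl⟩ := D.tr C C'
  have h1 : ∑ a with D.I a C, m a = ∑ a with D.I a (g • C), m a := by
    rw [← Finset.sum_filter_add_sum_filter_not _ fun a => D.I a B,
      ← Finset.sum_filter_add_sum_filter_not (Finset.univ.filter fun a => D.I a (g • C)) fun a => D.I a B]
    simp only [Finset.filter_filter]
    congr 1
    · exact Finset.sum_congr (Finset.filter_congr fun a _ => and_congr_left (hp a)) fun _ _ => rfl
    · rw [Finset.sum_congr rfl fun a ha => hm a (Finset.mem_filter.1 ha).2.2,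
        Finset.sum_congr rfl fun a ha => hm a (Finset.mem_filter.1 ha).2.2, Finset.sum_const, Finset.sum_const]
      have := hk C hC
      have := hk _ hC'
      have := D.ncard_smul g C C
      have := D.meet hC hC'
      congr 1
      omega
  rw [← hN, ← hN] at h1
  refine h1.not_gt (Finset.sum_lt_sum (fun E hE => ?_) ⟨C, Finset.mem_filter.2 ⟨Finset.mem_univ _, h⟩, ?_⟩)
  · have hE' : g • C ≠ E := fun e => hne (e ▸ (Finset.mem_filter.1 hE).2)
    by_cases e : C = E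
    · exact Set.ncard_le_ncard fun a ha => ⟨e ▸ ha.2, ha.2⟩
    · exact (D.meet hE' e).le
  · obtain ⟨a, h2, h3⟩ := D.dual.exists_sep (fun e : C = g • C => hne (e ▸ h))
    exact Set.ncard_lt_ncard ⟨fun a ha => ⟨ha.2, ha.2⟩, fun hs => h3 (hs ⟨h2, h2⟩).1⟩

theorem NT.elation_mul (hf : ∀ g : G, (∀ a : Ω, g • a = a) → g = 1) {B : Y} (hB : D.NT B) {x y : G}
    (hx : ∀ a, D.I a B → x • a = a) (hx' : ∀ a, ¬ D.I a B → x • a ≠ a) (hy : ∀ a, D.I a B → y • a = a)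
    (hy' : ∀ a, ¬ D.I a B → y • a ≠ a) {e : Ω} (he : ¬ D.I e B) (h : (x * y) • e = e) : x * y = 1 := by
  have hxy : ∀ a, D.I a B → (x * y) • a = a := fun a ha => by rw [mul_smul, hy a ha, hx a ha]
  have f : ∀ C, D.I e C → (x * y) • C = C := fun C hC =>
    D.fix_of_mem hxy he hC (by rw [← h]; exact (D.inv _ _ _).2 hC)
  obtain ⟨C, h1, h2⟩ := hB.join e (x • e)
  have hC : C ≠ B := fun e => he (e ▸ h1)
  have h3 : x • C = C :=
    D.fix_of_mem hx (fun e => he (by rwa [← D.inv x, D.fix_blk hx])) h2 ((D.inv _ _ _).2 h1)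
  have h4 : y • C = C := MulAction.injective x (by simpa only [mul_smul, h3] using f C h1)
  obtain ⟨E, hE⟩ : ∃ E : Y, x • E ≠ E := by
    by_contra hne
    push Not at hne
    exact hx' e he (by rw [D.faith hf x hne, one_smul])
  obtain ⟨g, rfl, e2⟩ := D.two_blk E B C B (fun e => hE (e ▸ D.fix_blk hx)) hC
  have hC' : g • x • E ≠ B := fun e => hE (by
    rw [← e2, smul_left_cancel_iff, ← D.fix_blk hx, smul_left_cancel_iff] at e
    rw [e, D.fix_blk hx])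
  have hp : ∀ a, D.I a B → (D.I a (g • E) ↔ D.I a (g • x • E)) := fun a ha => by
    rw [← e2, D.inv'] at ha
    rw [D.inv', D.inv' g, ← D.inv x, hx _ ha]
  have h5 : (x * y) • g • x • E = g • x • E := by
    rw [mul_smul, pencil hy hy' hC hC' hp h4, pencil hx hx' hC hC' hp h3]
  have h6 : ¬ D.I e (g • x • E) := fun h6 => he (D.meet_sub hC.symm (fun e => hE (MulAction.injective g e).symm)
    (fun a h7 h8 => ⟨h8, (hp a h7).1 h8⟩) e h1 h6).1
  obtain ⟨c, h7, h8, h9⟩ := hB.exists_off hC' e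
  exact hB.eq_one hf hxy h7 h9 he (D.dual.fix_of_mem f h6 h8 (by rw [← h5]; exact (D.inv _ _ _).2 h8)) h

omit [Finite G] [Finite Ω] [Finite Y] in
theorem NT.smul {B : Y} (hB : D.NT B) (g : G) : D.NT (g • B) := by
  obtain ⟨⟨a, b, h, h1, h2⟩, c, d, h', h3, h4⟩ := hB
  exact ⟨⟨g • a, g • b, (MulAction.injective g).ne h, (D.inv _ _ _).2 h1, (D.inv _ _ _).2 h2⟩,
    g • c, g • d, (MulAction.injective g).ne h', (D.inv _ _ _).not.2 h3, (D.inv _ _ _).not.2 h4⟩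

/-- The group of elations with axis `B`. -/
def NT.T (hf : ∀ g : G, (∀ a : Ω, g • a = a) → g = 1) {B : Y} (hB : D.NT B) : Subgroup G where
  carrier := {x | (∀ a, D.I a B → x • a = a) ∧ ∀ a, ¬ D.I a B → x • a = a → x = 1}
  one_mem' := ⟨fun _ _ => one_smul _ _, fun _ _ _ => rfl⟩
  inv_mem' := fun h => ⟨fun a ha => inv_smul_eq_iff.2 (h.1 a ha).symm,
    fun a ha e => inv_eq_one.2 (h.2 a ha (inv_smul_eq_iff.1 e).symm)⟩
  mul_mem' := fun {x y} hx hy => ⟨fun a ha => by rw [mul_smul, hy.1 a ha, hx.1 a ha], fun a ha e => by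
    by_cases h1 : x = 1
    · rw [h1, one_mul] at e ⊢
      exact hy.2 a ha e
    by_cases h2 : y = 1
    · rw [h2, mul_one] at e ⊢
      exact hx.2 a ha e
    exact hB.elation_mul hf hx.1 (fun a ha e => h1 (hx.2 a ha e)) hy.1 (fun a ha e => h2 (hy.2 a ha e)) ha e⟩

theorem NT.conj_T (hf : ∀ g : G, (∀ a : Ω, g • a = a) → g = 1) {B C : Y} (hB : D.NT B) (hC : D.NT C) {g x : G}
    (hg : g • B = C) (hx : x ∈ hB.T hf) : g * x * g⁻¹ ∈ hC.T hf := by
  subst hg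
  refine ⟨fun a ha => ?_, fun a ha e => ?_⟩
  · rw [mul_smul, mul_smul, hx.1 _ ((D.inv' _ _ _).1 ha), smul_inv_smul]
  · rw [hx.2 (g⁻¹ • a) ((D.inv' _ _ _).not.1 ha) (by rwa [mul_smul, mul_smul, ← eq_inv_smul_iff] at e),
      mul_one, mul_inv_cancel]

theorem NT.exists_elation (hf : ∀ g : G, (∀ a : Ω, g • a = a) → g = 1) {B : Y} (hB : D.NT B) {x : G} (h1 : x ≠ 1)
    (hx : ∀ a, D.I a B → x • a = a) : ∃ t ∈ hB.T hf, t ≠ 1 := by
  by_contra hne
  push Not at hne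
  obtain ⟨e, e', hne', he, he'⟩ := hB.off
  have ho : ∀ a, a ∈ orbit (stabilizer G B) e ↔ ¬ D.I a B := fun a => by
    constructor
    · rintro ⟨g, rfl⟩ h
      exact he (by rw [← D.inv g.1, g.2]; exact h)
    · intro h
      obtain ⟨g, e1, e2⟩ := D.tr_pair (iff_of_false he h)
      exact ⟨⟨g, e2⟩, e1⟩
  let K : Subgroup (stabilizer G B) :=
    { carrier := {g | ∀ a, D.I a B → g.1 • a = a}
      one_mem' := fun a _ => one_smul _ _
      mul_mem' := fun {g h} hg hh a ha => by rw [coe_mul, mul_smul, hh a ha, hg a ha]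
      inv_mem' := fun {g} hg a ha => inv_smul_eq_iff.2 (hg a ha).symm }
  haveI : K.Normal := ⟨fun n hn g a ha => by
    rw [coe_mul, coe_mul, mul_smul, mul_smul, hn _ (by rw [coe_inv, ← D.inv', g.2]; exact ha), coe_inv, smul_inv_smul]⟩
  have := fix_of_normal_of_one_fixed (X := orbit (stabilizer G B) e) K fun n hn hn1 => by
    rw [Nat.card_coe_set_eq, Set.ncard_eq_one]
    obtain ⟨a, ha, e⟩ : ∃ a, ¬ D.I a B ∧ n.1 • a = a := by
      by_contra h
      push Not at h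
      exact hn1 (Subtype.ext (hne n ⟨hn, fun a ha e => absurd e (h a ha)⟩))
    refine ⟨⟨a, (ho a).2 ha⟩, Set.eq_singleton_iff_unique_mem.2 ⟨Subtype.ext e, fun b hb => Subtype.ext ?_⟩⟩
    by_contra h
    exact hn1 (Subtype.ext (hB.eq_one hf hn h ((ho _).1 b.2) ha (congrArg Subtype.val hb) e))
  exact h1 (hB.eq_one hf hx hne' he he' (congrArg Subtype.val (this ⟨e, (ho e).2 he⟩ ⟨x, D.fix_blk hx⟩ hx))
    (congrArg Subtype.val (this ⟨e', (ho e').2 he'⟩ ⟨x, D.fix_blk hx⟩ hx)))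

theorem NT.fitting_ne (hf : ∀ g : G, (∀ a : Ω, g • a = a) → g = 1) {B : Y} (hB : D.NT B) {x : G} (h1 : x ≠ 1)
    (hx : x ∈ hB.T hf) : fittingOf (hB.T hf) ≠ ⊥ := by
  obtain ⟨e, -, -, he, -⟩ := hB.off
  obtain ⟨C, h2, h3⟩ := hB.join e (x • e)
  have hC : C ≠ B := fun e => he (e ▸ h2)
  have h4 : x • C = C :=
    D.fix_of_mem hx.1 (fun e => he (by rwa [← D.inv x, D.fix_blk hx.1])) h3 ((D.inv _ _ _).2 h2)
  obtain ⟨g, g1, g2⟩ := D.two_blk B C C B hC.symm hC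
  have hCN : D.NT C := g1 ▸ hB.smul g
  have hs := hB.conj_T hf hCN g1 hx
  have hs1 : g * x * g⁻¹ ≠ 1 := fun e => h1 (by simpa using e)
  have hsB : (g * x * g⁻¹) • B = B := by rw [mul_smul, mul_smul, inv_smul_eq_iff.2 g2.symm, h4, g2]
  generalize g * x * g⁻¹ = s at hs hs1 hsB
  obtain ⟨t, ht, htC⟩ : ∃ t ∈ hB.T hf, t • C ≠ C := by
    obtain ⟨E, hE⟩ : ∃ E : Y, x • E ≠ E := by
      by_contra hne
      push Not at hne
      exact h1 (D.faith hf x hne)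
    obtain ⟨k, k1, k2⟩ := D.two_blk B E B C (fun e => hE (e ▸ D.fix_blk hx.1)) hC.symm
    exact ⟨_, hB.conj_T hf hB k1 hx, by rwa [← k2, mul_smul, mul_smul, inv_smul_smul, Ne, smul_left_cancel_iff]⟩
  have pen : ∀ {B C : Y} (hB : D.NT B), C ≠ B → ∀ r ∈ hB.T hf, r • C = C → ∀ C', C' ≠ B →
      (∀ a, D.I a B → (D.I a C ↔ D.I a C')) → r • C' = C' := fun hB hC r hr e C' hC' hp => by
    by_cases h : r = 1
    · rw [h, one_smul]
    · exact pencil hr.1 (fun a ha e => h (hr.2 a ha e)) hC hC' hp e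
  have TI : ∀ C, C ≠ B → ∀ r : G, r ∈ hB.T hf → (∀ a, D.I a C → r • a = a) → r = 1 := fun C hC r hr h => by
    obtain ⟨c, -, c1, c2⟩ := hB.exists_off hC e
    exact hr.2 c c2 (h c c1)
  have mv : ∀ r ∈ hB.T hf, r • C ≠ B ∧ ∀ a, D.I a B → (D.I a C ↔ D.I a (r • C)) := fun r hr =>
    ⟨fun e => hC (MulAction.injective r (e.trans (D.fix_blk hr.1).symm)),
      fun a ha => by rw [← D.inv r, hr.1 a ha]⟩
  have nrm : ∀ r ∈ hB.T hf, ∀ u ∈ hB.T hf, u • C = C → (r * u * r⁻¹) • C = C := fun r hr u hu e => by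
    rw [mul_smul, mul_smul, pen hB hC u hu e _ (mv _ (inv_mem hr)).1 (mv _ (inv_mem hr)).2, smul_inv_smul]
  have cs : ∀ u ∈ hB.T hf, u • C = C → u * s = s * u := fun u hu e => by
    have := TI C hC (u * (s * u⁻¹ * s⁻¹)) (mul_mem hu (hB.conj_T hf hB hsB (inv_mem hu)))
      (by simpa only [mul_assoc] using (mul_mem (hCN.conj_T hf hCN e hs) (inv_mem hs)).1)
    rwa [← mul_assoc, ← mul_assoc, mul_inv_eq_one, mul_inv_eq_iff_eq_mul] at this
  let A : Subgroup G :=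
    { carrier := {a | a ∈ hB.T hf ∧ a • C = C ∧ ∀ u ∈ hB.T hf, u • C = C → u * a = a * u}
      one_mem' := ⟨one_mem _, one_smul _ _, fun u _ _ => by simp⟩
      mul_mem' := fun {a b} ha hb => ⟨mul_mem ha.1 hb.1, by rw [mul_smul, hb.2.1, ha.2.1], fun u hu e => by
        rw [← mul_assoc, ha.2.2 u hu e, mul_assoc, hb.2.2 u hu e, mul_assoc]⟩
      inv_mem' := fun {a} ha => ⟨inv_mem ha.1, inv_smul_eq_iff.2 ha.2.1.symm, fun u hu e =>
        (Commute.inv_right (ha.2.2 u hu e)).eq⟩ }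
  haveI : IsMulCommutative A := ⟨⟨fun a b => Subtype.ext (b.2.2.2 a a.2.1 a.2.2.1)⟩⟩
  have hA : A ≤ fittingOf (hB.T hf) := le_fittingOf (fun a ha => ha.1) (fun r hr => mem_normalizer_fintype
    fun a ha => ⟨mul_mem (mul_mem hr ha.1) (inv_mem hr), nrm r hr a ha.1 ha.2.1, fun u hu e => by
      have := ha.2.2 _ (mul_mem (mul_mem (inv_mem hr) hu) (inv_mem (inv_mem hr))) (nrm _ (inv_mem hr) u hu e)
      calc u * (r * a * r⁻¹) = r * (r⁻¹ * u * r⁻¹⁻¹ * a) * r⁻¹ := by group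
        _ = _ := by rw [this]; group⟩) (isNilpotent_of_isMulCommutative A)
  intro h0
  have hz : t * (s * t⁻¹ * s⁻¹) ∈ A := by
    refine ⟨mul_mem ht (hB.conj_T hf hB hsB (inv_mem ht)), ?_, fun u hu e => ?_⟩
    · rw [mul_smul, mul_smul, mul_smul, inv_smul_eq_iff.2 (D.fix_blk hs.1).symm, pen hCN hC.symm s hs hsB _
        (fun e => htC (inv_smul_eq_iff.1 e).symm) fun a ha => ?_, smul_inv_smul]
      refine ⟨fun h => ((mv _ (inv_mem ht)).2 a h).1 ha, fun h => ?_⟩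
      exact (D.meet_sub hC.symm (fun e => htC (inv_smul_eq_iff.1 e.symm).symm)
        (fun a h5 h6 => ⟨h6, ((mv _ (inv_mem ht)).2 a h5).1 h6⟩) a ha h).1
    · have c1 := cs _ (mul_mem (mul_mem (inv_mem ht) hu) (inv_mem (inv_mem ht))) (nrm _ (inv_mem ht) u hu e)
      have c2 := (Commute.inv_right (cs u hu e)).eq
      calc u * (t * (s * t⁻¹ * s⁻¹)) = t * (t⁻¹ * u * t⁻¹⁻¹ * s) * t⁻¹ * s⁻¹ := by group
        _ = t * s * t⁻¹ * (u * s⁻¹) := by rw [c1]; group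
        _ = _ := by rw [c2]; group
  have h5 : t * (s * t⁻¹ * s⁻¹) = 1 := (h0 ▸ hA hz : _ ∈ (⊥ : Subgroup G))
  have h6 : t * s * t⁻¹ = s := by rwa [← mul_assoc, ← mul_assoc, mul_inv_eq_one] at h5
  have h7 := hCN.conj_T hf (hCN.smul t) rfl hs
  obtain ⟨c, -, c1, c2⟩ := hCN.exists_off htC e
  exact hs1 (hs.2 c c2 (h6 ▸ h7.1 c c1))

/-- **Ito's theorem.** -/
theorem NT.proj (hf : ∀ g : G, (∀ a : Ω, g • a = a) → g = 1) {B : Y} (hB : D.NT B) {x : G} (h1 : x ≠ 1)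
    (hx : ∀ a, D.I a B → x • a = a) :
    ∃ (K : Type) (_ : Field K) (_ : Fintype K) (n : ℕ), 3 ≤ n ∧ Nonempty (ON.Proj G Y K n) := by
  obtain ⟨t, ht, ht1⟩ := hB.exists_elation hf h1 hx
  obtain ⟨a, b, hab, ha, hb⟩ := hB.on
  obtain ⟨g, e1, e2⟩ := D.tr_pair (iff_of_true ha hb)
  exact D.proj_of_fitting hf B (hB.T hf) (fun t ht => D.fix_blk ht.1) (fun g hg t ht => hB.conj_T hf hB hg ht)
    (hB.fitting_ne hf ht1 ht) (fun t ht => ht.1 a ha) e2 (e1 ▸ hab.symm)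

end Sym

/-- The design of an intransitive subgroup of index `|Ω|`. -/
def symOfOrbit {G Ω : Type*} [Group G] [MulAction G Ω] (h2 : IsMultiplyPretransitive G Ω 2) (H : Subgroup G)
    (hidx : H.index = Nat.card Ω) (hnt : ¬ IsPretransitive H Ω) (a : Ω) : Sym G Ω (G ⧸ H) where
  I b y := ∃ g : G, (g : G ⧸ H) = y ∧ g • a = b
  inv g b y := ⟨fun ⟨k, h1, h2⟩ => ⟨g⁻¹ * k, by rw [← smul_eq_mul, ← Quotient.smul_coe, h1, inv_smul_smul],
    by rw [mul_smul, h2, inv_smul_smul]⟩, fun ⟨k, h1, h2⟩ => ⟨g * k, by rw [← h1]; rfl, by rw [mul_smul, h2]⟩⟩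
  card := hidx.symm
  two := two_iff.1 h2
  tr y y' := exists_smul_eq G y y'
  ex := by
    by_contra hne
    push Not at hne
    refine hnt ⟨fun b c => ?_⟩
    obtain ⟨g, h1, rfl⟩ := hne a b _ ⟨1, rfl, one_smul _ _⟩
    obtain ⟨k, h2, rfl⟩ := hne a c _ ⟨1, rfl, one_smul _ _⟩
    have h1 : g⁻¹ ∈ H := by simpa using QuotientGroup.eq.1 h1
    have h2 : k ∈ H := by simpa using QuotientGroup.eq.1 h2.symm
    exact ⟨⟨k * g⁻¹, mul_mem h2 h1⟩, by simp [Subgroup.smul_def, mul_smul]⟩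

theorem concl_of_proj {G Ω : Type*} [Group G] [MulAction G Ω] {Y : Type*} [MulAction G Y]
    (hc : Nat.card Ω = Nat.card Y) (hf : ∀ g : G, (∀ y : Y, g • y = y) → g = 1)
    (h : ∃ (K : Type) (_ : Field K) (_ : Fintype K) (n : ℕ), 3 ≤ n ∧ Nonempty (ON.Proj G Y K n)) :
    ∃ (m : ℕ) (F : Type) (_ : Field F) (_ : Fintype F), 2 ≤ m ∧
      Nat.card Ω = (Fintype.card F ^ (m + 1) - 1) / (Fintype.card F - 1) ∧ ∃ N : Subgroup G, N.Normal ∧
        Nonempty (N ≃* Matrix.ProjectiveSpecialLinearGroup (Fin (m + 1)) F) ∧ centralizer (N : Set G) = ⊥ := by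
  obtain ⟨K, _, _, n, hn, ⟨P⟩⟩ := h
  obtain ⟨m, rfl⟩ : ∃ m, n = m + 1 := ⟨n - 1, by omega⟩
  exact ⟨m, K, inferInstance, inferInstance, by omega, hc.trans P.card, _, P.normal, P.equiv hf, P.centralizer_eq hf⟩

end Cfsg.Lib.Perm
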