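import Cfsg.Agent.Lib.Perm.LW2

/-! Jordan: degrees of sharply `k`-transitive groups, `k ≥ 4`. -/

set_option autoImplicit false

namespace Cfsg.Lib.Perm
open MulAction Function Equiv
open scoped Pointwise

variable {G α : Type*} [Group G] [MulAction G α]

theorem sharp_card_cases [Finite G] [Fintype α] [DecidableEq α] {k : ℕ} (hk : 4 ≤ k)
    (hG : IsMultiplyPretransitive G α k) (hn : k ≤ Fintype.card α)
    (hsh : ∀ x : Fin k ↪ α, stabilizer G x = ⊥) : Fintype.card α = k ∨ Fintype.card α = k + 1 ∨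
      Fintype.card α = k + 2 ∨ (Fintype.card α = k + 7 ∧ k ≤ 5) := by
  have hs : ∀ (g : G) (S : Finset α), k ≤ S.card → (∀ x ∈ S, g • x = x) → g = 1 := by
    intro g S hS h
    obtain ⟨s, h1, h2⟩ := Finset.exists_subset_card_eq hS
    exact sharp_iff_finset.1 hsh g s h2 fun a ha => h a (h1 ha)
  obtain ⟨j, rfl⟩ := Nat.exists_eq_add_of_le' hk
  by_cases h6 : Fintype.card α < j + 6
  · omega
  rcases card_cases_of_odd hG (not_lt.1 h6) (fun g S hS h => by rw [hs g S hS h]; simp)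
    (fun g S hS => hs g S (by omega)) with ⟨h1, h2⟩ | ⟨h1 | h1, -⟩
  · obtain ⟨s, hsc⟩ := exists_finset_card (α := α) (k := j + 4) (by rwa [Nat.card_eq_fintype_card])
    obtain ⟨a, ha⟩ := exists_notMem_finset s (by rw [Nat.card_eq_fintype_card]; omega)
    obtain ⟨b, hb⟩ := exists_notMem_finset (insert a s) (by
      rw [Nat.card_eq_fintype_card, Finset.card_insert_of_notMem ha]; omega)
    rw [Finset.mem_insert, not_or] at hb
    obtain ⟨g, h3, h4⟩ := exists_fix_smul_eq h2 s hsc ha hb.2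
    rw [hs g s hsc.ge h3, one_smul] at h4
    exact absurd h4.symm hb.1
  · omega
  refine Or.inr (Or.inr (Or.inr ⟨h1, ?_⟩))
  by_contra hj
  obtain ⟨Δ, hΔ, hsw⟩ := exists_steiner_block hG h1 hs (by omega)
  have ht := ind_eq_top_of_swaps (G := G) (x := fun y : Δ => (y : α)) Δ hsw Subtype.val_injective
    fun i => i.2
  obtain ⟨σ, hσ⟩ := (Perm.exists_with_cycleType_iff (m := {7}) Δ).2
    ⟨by simp; omega, by simp⟩
  obtain ⟨g, hg⟩ := mem_ind.1 (ht ▸ Subgroup.mem_top σ)
  have hgΔ : g • Δ = Δ := Finset.eq_of_subset_of_card_le (fun x hx => by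
    obtain ⟨y, hy, rfl⟩ := Finset.mem_smul_finset.1 hx
    exact (hg ⟨y, hy⟩).symm ▸ (σ ⟨y, hy⟩).2) (Finset.card_smul_finset _ _).ge
  have hgc : g ∈ stabilizer G Δᶜ := Finset.eq_of_subset_of_card_le (fun x hx => by
    obtain ⟨y, hy, rfl⟩ := Finset.mem_smul_finset.1 hx
    rw [Finset.mem_compl] at hy ⊢
    exact fun h => hy ((Finset.smul_mem_smul_finset_iff g).1 (hgΔ.symm ▸ h)))
    (Finset.card_smul_finset _ _).ge
  have h720 : finsetStabHom Δᶜ (⟨g, hgc⟩ ^ 720) = 1 := by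
    have : Nat.card (Perm ↥Δᶜ) = 720 := by
      rw [Nat.card_perm, Nat.card_eq_fintype_card, Fintype.card_coe, Finset.card_compl, hΔ, h1,
        show j + 11 - (j + 4 + 1) = 6 by omega]; rfl
    rw [map_pow, ← this, pow_card_eq_one']
  have hpow : ∀ (m : ℕ) (y : Δ), g ^ m • (y : α) = (σ ^ m) y := by
    intro m y
    induction m with
    | zero => simp
    | succ m ih => rw [pow_succ', mul_smul, ih, hg, pow_succ', Perm.mul_apply]
  have hsup : σ.support.card = 7 := by rw [← Perm.sum_cycleType, hσ]; rfl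
  have := hs (g ^ 720) (σ.support.map (Embedding.subtype _))ᶜ
    (by rw [Finset.card_compl, Finset.card_map]; omega) fun x hx => by
      by_cases hxΔ : x ∈ Δ
      · have h0 : σ ⟨x, hxΔ⟩ = ⟨x, hxΔ⟩ := Perm.notMem_support.1 fun h =>
          Finset.mem_compl.1 hx (Finset.mem_map.2 ⟨_, h, rfl⟩)
        exact (hpow 720 ⟨x, hxΔ⟩).trans (congrArg Subtype.val (Perm.pow_apply_eq_self_of_apply_eq_self
          h0 720))
      · exact congrArg Subtype.val (congrArg (fun τ : Perm ↥Δᶜ => τ ⟨x, Finset.mem_compl.2 hxΔ⟩) h720)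
  have h7 : σ ^ 720 = 1 := Equiv.ext fun y => Subtype.ext (by
    rw [← hpow, this, one_smul]; rfl)
  rw [← orderOf_dvd_iff_pow_eq_one, ← Perm.lcm_cycleType, hσ] at h7
  simp at h7

end Cfsg.Lib.Perm
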