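import Cfsg.Agent.Lib.Perm.JordanSet2
import Cfsg.Agent.Lib.Perm.SharpK

/-! Miller's bound on the degree of transitivity. -/

set_option autoImplicit false

namespace Cfsg.Lib.Perm
open MulAction Function Finset
open scoped Pointwise

variable {G Ω : Type*} [Group G] [MulAction G Ω] [DecidableEq Ω]

lemma period_eq_prime {p : ℕ} (hp : p.Prime) {g : G} {j : ℕ} (hg : g ^ p ^ j = 1) {S : Finset Ω}
    (hS : ∀ δ ∈ S, g • δ ∈ S) (hc : #S ≤ p) {γ : Ω} (hγ : γ ∈ S) (hm : g • γ ≠ γ) :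
    period g γ = p ∧ ∀ δ ∈ S, ∃ i : ℕ, g ^ i • γ = δ := by
  have hsub : (range (period g γ)).image (fun i => g ^ i • γ) ⊆ S := by
    intro x hx
    obtain ⟨i, -, rfl⟩ := mem_image.1 hx
    induction i with
    | zero => simpa
    | succ i ih => rw [pow_succ', mul_smul]; exact hS _ (ih (by
        have hpos : 0 < period g γ := period_pos_of_fixed (pow_pos hp.pos j) (by rw [hg, one_smul])
        exact mem_image.2 ⟨i % _, mem_range.2 (Nat.mod_lt _ hpos), pow_mod_period_smul i⟩))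
  have hcard : #((range (period g γ)).image (fun i => g ^ i • γ)) = period g γ := by
    rw [card_image_of_injOn, card_range]
    intro a ha b hb h
    refine iterate_injOn_Iio_minimalPeriod (f := fun x => g • x) (x := γ) (mem_range.1 ha)
      (mem_range.1 hb) ?_
    simpa [smul_iterate] using h
  obtain ⟨i, -, hi⟩ := (Nat.dvd_prime_pow hp).1 (pow_smul_eq_iff_period_dvd.1
    (show g ^ p ^ j • γ = γ by rw [hg, one_smul]))
  have h1 : p ≤ period g γ := by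
    rw [hi]
    refine Nat.le_self_pow (fun h => hm (period_eq_one_iff.1 (by rw [hi, h, pow_zero]))) p
  have h2 := card_le_card hsub
  refine ⟨by omega, fun δ hδ => ?_⟩
  rw [← eq_of_subset_of_card_le hsub (by omega)] at hδ
  obtain ⟨i, -, h⟩ := mem_image.1 hδ
  exact ⟨i, h⟩

lemma jor_of_pelt {p : ℕ} (hp : p.Prime) {g : G} {j : ℕ} (hg : g ^ p ^ j = 1) {S : Finset Ω}
    (hS : ∀ δ ∉ S, g • δ = δ) (hc : #S ≤ p) {γ : Ω} (hm : g • γ ≠ γ) : Jor G (S : Set Ω) := by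
  have h := (period_eq_prime hp hg (fun δ => smul_mem_of_fix (Γ := (S : Set Ω)) hS) hc
    (by_contra fun h => hm (hS γ h)) hm).2
  intro x hx y hy
  obtain ⟨i, rfl⟩ := h x hx
  obtain ⟨k, rfl⟩ := h y hy
  have : ∀ (i : ℕ), ∀ δ ∉ S, g ^ i • δ = δ := fun i δ hδ => (stabilizer G δ).pow_mem (hS δ hδ) i
  exact ⟨g ^ k * (g ^ i)⁻¹, fun z hz => by
    rw [mul_smul, inv_smul_eq_iff.2 (this i z hz).symm, this k z hz], by simp [mul_smul]⟩

variable [Fintype Ω]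

lemma jor_of_support {Δ : Finset Ω} (h : IsMultiplyPretransitive G Ω #Δ) {g : G}
    (hg : ∀ z ∉ Δ, g • z = z) {a : Ω} (ha : g • a ≠ a) : Jor G (Δ : Set Ω) := by
  intro x hx y hy
  by_cases hxy : x = y
  · exact ⟨1, by simp, by simp [hxy]⟩
  have haΔ : a ∈ Δ := by_contra fun h => ha (hg a h)
  obtain ⟨σ, h1, h2⟩ := two_iff.1 (Equiv.Perm.isMultiplyPretransitive Δ 2) ⟨a, haΔ⟩
    ⟨g • a, smul_mem_of_fix (Γ := (Δ : Set Ω)) hg haΔ⟩ ⟨x, hx⟩ ⟨y, hy⟩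
    (fun e => ha (congrArg Subtype.val e).symm) (fun e => hxy (congrArg Subtype.val e))
  obtain ⟨t, ht⟩ := exists_smul_eq_of_card_eq h (ι := Δ) (by simp) Subtype.val (fun i => σ i)
    Subtype.val_injective (Subtype.val_injective.comp σ.injective)
  refine ⟨t * g * t⁻¹, fun z hz => ?_, ?_⟩
  · rw [mul_smul, mul_smul, hg, smul_inv_smul]
    exact fun h => hz (by
      have := (σ ⟨_, h⟩).2
      rwa [← ht ⟨_, h⟩, smul_inv_smul] at this)
  · have e1 : t • a = x := (ht ⟨a, haΔ⟩).trans (congrArg Subtype.val h1)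
    have e2 : t • g • a = y := (ht ⟨_, _⟩).trans (congrArg Subtype.val h2)
    rw [← e1, mul_smul, inv_smul_smul, mul_smul, e2]

lemma alt_of_four_nine [Finite G] [FaithfulSMul G Ω] (hn : Fintype.card Ω = 9) (h : IsMultiplyPretransitive G Ω 4) :
    IsMultiplyPretransitive G Ω (Fintype.card Ω - 2) := by
  have hN : Nat.card Ω = 9 := by rw [Nat.card_eq_fintype_card, hn]
  have hG : IsPreprimitive G Ω :=
    isPreprimitive_of_is_two_pretransitive (isMultiplyPretransitive_of_le (n := 4) (by omega) (by omega))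
  obtain ⟨g, s, hs, hg, hg1⟩ : ∃ (g : G) (s : Finset Ω), #s = 4 ∧ (∀ a ∈ s, g • a = a) ∧ g ≠ 1 := by
    by_contra! hc
    have := sharp_card_cases le_rfl h (by omega) (sharp_iff_finset.2 hc)
    omega
  obtain ⟨q, hq, hqd⟩ := Nat.exists_prime_and_dvd (n := orderOf g) (by simpa using hg1)
  haveI := Fact.mk hq
  obtain ⟨⟨u, hu⟩, ho⟩ := exists_prime_orderOf_dvd_card' (G := Subgroup.zpowers g) q (by simpa using hqd)
  rw [Subgroup.orderOf_mk] at ho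
  have hus : ∀ a ∈ s, u • a = a := fun a ha =>
    (Subgroup.zpowers_le.2 (show g ∈ stabilizer G a from hg a ha)) hu
  obtain ⟨a, ha⟩ := exists_smul_ne (α := Ω) (g := u) (by rintro rfl; simp at ho; exact hq.one_lt.ne ho)
  have huq : u ^ q ^ 1 = 1 := by rw [pow_one, ← ho, pow_orderOf_eq_one]
  by_cases hb : ∃ b ∉ s, u • b = b
  · obtain ⟨b, hb, hb'⟩ := hb
    have hc : #(insert b s)ᶜ = 4 := by rw [card_compl, card_insert_of_notMem hb]; omega
    refine marggraf _ rfl hG (jor_of_support (Δ := (insert b s)ᶜ) (hc ▸ h) (fun z hz => ?_) ha)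
      (by omega) (by omega)
    rcases mem_insert.1 (not_not.1 (mt mem_compl.2 hz)) with rfl | hz
    · exact hb'
    · exact hus z hz
  have h5 : q = 5 := by
    have := card_modEq_fixedBy (α := Ω) huq
    rw [show fixedBy Ω u = s from Set.ext fun z => ⟨fun hz => by_contra fun h => hb ⟨z, h, hz⟩,
      hus z⟩, hN, Nat.card_coe_set_eq, Set.ncard_coe_finset, hs] at this
    exact (Nat.prime_dvd_prime_iff_eq hq Nat.prime_five).1 ((Nat.modEq_iff_dvd' (by omega)).1 this.symm)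
  have hc : #sᶜ = 5 := by rw [card_compl]; omega
  exact (jor_of_pelt hq huq (S := sᶜ) (fun z hz => hus z (by simpa using hz)) (by omega) ha).alt_of_prime
    hG (hc ▸ Nat.prime_five) (by omega) (by omega)

omit [DecidableEq Ω] [Fintype Ω] in
lemma perm_eq_one_of_comm (h3 : 3 ≤ Nat.card Ω) {σ : Equiv.Perm Ω} (h : ∀ τ, τ * σ = σ * τ) :
    σ = 1 := by
  classical
  haveI : Finite Ω := Nat.finite_of_card_ne_zero (by omega)
  ext a
  by_contra ha
  replace ha : σ a ≠ a := ha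
  obtain ⟨c, h1, h2⟩ := exists_ne_ne h3 a (σ a)
  have := congrArg (· a) (h (Equiv.swap a c))
  simp only [Equiv.Perm.mul_apply, Equiv.swap_apply_left] at this
  rw [Equiv.swap_apply_of_ne_of_ne ha h2.symm] at this
  exact h1 (σ.injective this).symm

set_option maxHeartbeats 1000000 in
/-- Miller's theorem -/
theorem miller [Finite G] [FaithfulSMul G Ω] {k p r : ℕ} (hp : p.Prime)
    (hn : Fintype.card Ω = k * p + r) (hk : 1 ≤ k) (hpk : k < p) (hrk : k < r)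
    (hex : ¬ (k = 1 ∧ r = 2)) (hG : IsMultiplyPretransitive G Ω (r + 1)) :
    IsMultiplyPretransitive G Ω (Fintype.card Ω - 2) := by
  classical
  haveI := Fact.mk hp
  have hkp : p ≤ k * p := Nat.le_mul_of_pos_left p hk
  have hp2 := hp.two_le
  have hN : Nat.card Ω = Fintype.card Ω := Nat.card_eq_fintype_card
  have hprim : IsPreprimitive G Ω := isPreprimitive_of_is_two_pretransitive
    (isMultiplyPretransitive_of_le (n := r + 1) (by omega) (by omega))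
  have hJ : ∀ S : Finset Ω, k * p ≤ #S → Jor G (S : Set Ω) := fun S hS x hx y hy => by
    obtain ⟨g, h1, h3⟩ := exists_fix_smul_eq_of_le hG (by omega) Sᶜ (by rw [card_compl]; omega)
      (a := x) (b := y) (by simpa using hx) (by simpa using hy)
    exact ⟨g, fun z hz => h1 z (by simpa using hz), h3⟩
  by_cases hq : ∃ q, q.Prime ∧ k * p ≤ q ∧ q + 3 ≤ k * p + r
  · obtain ⟨q, h1, h2, h3⟩ := hq
    obtain ⟨S, rfl⟩ := exists_finset_card (α := Ω) (k := q) (by omega)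
    exact (hJ S h2).alt_of_prime hprim h1 (by omega) (by omega)
  have hk2 : 2 ≤ k := by
    by_contra h
    obtain rfl : k = 1 := by omega
    exact hq ⟨p, hp, by omega, by omega⟩
  have hkp6 : 6 ≤ k * p := by nlinarith
  have hr : r < k * p := by
    by_contra h
    obtain ⟨q, h1, h2, h3⟩ := Nat.exists_prime_lt_and_le_two_mul (k * p - 1) (by omega)
    have := h1.eq_two_or_odd
    exact hq ⟨q, h1, by omega, by omega⟩
  by_cases h9 : r = 3 ∧ p = 3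
  · obtain ⟨rfl, rfl⟩ := h9
    exact alt_of_four_nine (by omega) hG
  by_contra hcon
  have hGr : IsMultiplyPretransitive G Ω r :=
    isMultiplyPretransitive_of_le (n := r + 1) (by omega) (by omega)
  obtain ⟨Δ, hΔ⟩ := exists_finset_card (α := Ω) (k := r) (by omega)
  have hΓ : ∀ g : G, (∀ z ∉ Δ, g • z = z) → g = 1 := fun g hg => by
    by_contra h1
    obtain ⟨a, ha⟩ := exists_smul_ne (α := Ω) h1
    exact hcon (marggraf _ rfl hprim (jor_of_support (hΔ ▸ hGr) hg ha) (by omega) (by omega))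
  obtain ⟨P, -, hPH, hP, hPi⟩ := Transfer.exists_sylowIn_ge (p := p)
    (H := fixingSubgroup G (Δ : Set Ω)) IsPGroup.of_bot bot_le
  have hPΔ : ∀ u ∈ P, ∀ a ∈ Δ, u • a = a := fun u hu a ha => hPH hu ⟨a, ha⟩
  have hPΓ : ∀ u ∈ P, ∀ a ∉ Δ, u • a ∉ Δ := fun u hu a ha h =>
    ha (by rwa [(smul_left_cancel_iff u).1 (hPΔ u hu _ h)] at h)
  have hmv : ∀ γ ∉ Δ, ∃ u ∈ P, u • γ ≠ γ := by
    intro γ hγ
    by_contra! hc
    refine hPi (dvd_trans ?_ (Subgroup.relIndex_dvd_of_le_left (H := P)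
      (K := stabilizer G γ) _ hc))
    have : orbit (fixingSubgroup G (Δ : Set Ω)) γ = (Δᶜ : Finset Ω) := by
      ext y
      constructor
      · rintro ⟨g, rfl⟩
        exact smul_mem_of_fix (Γ := (Δᶜ : Finset Ω)) (fun z hz => g.2 ⟨z, by simpa using hz⟩)
          (by simpa using hγ)
      · intro hy
        obtain ⟨g, h1, h2⟩ := hJ Δᶜ (by rw [card_compl]; omega) γ (by simpa using hγ) y hy
        exact ⟨⟨g, fun z => h1 z (by simp)⟩, h2⟩
    rw [show (stabilizer G γ).relIndex (fixingSubgroup G (Δ : Set Ω)) =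
      (stabilizer (fixingSubgroup G (Δ : Set Ω)) γ).index from rfl, index_stabilizer, this,
      Set.ncard_coe_finset, card_compl, hn, hΔ, Nat.add_sub_cancel]
    exact dvd_mul_left p k
  let O : Ω → Finset Ω := fun γ => {δ | ∃ u ∈ P, u • γ = δ}
  have hO : ∀ γ δ, δ ∈ O γ ↔ ∃ u ∈ P, u • γ = δ := fun γ δ => by simp [O]
  have hOs : ∀ γ, γ ∈ O γ := fun γ => (hO _ _).2 ⟨1, P.one_mem, one_smul _ _⟩
  have hOP : ∀ γ, ∀ u ∈ P, ∀ δ ∈ O γ, u • δ ∈ O γ := fun γ u hu δ hδ => by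
    obtain ⟨v, hv, rfl⟩ := (hO _ _).1 hδ
    exact (hO _ _).2 ⟨u * v, P.mul_mem hu hv, mul_smul _ _ _⟩
  have hOe : ∀ γ, ∀ δ ∈ O γ, O δ = O γ := fun γ δ hδ => by
    obtain ⟨v, hv, rfl⟩ := (hO _ _).1 hδ
    ext x
    constructor
    · intro hx
      obtain ⟨u, hu, rfl⟩ := (hO _ _).1 hx
      exact hOP _ _ hu _ hδ
    · intro hx
      obtain ⟨u, hu, rfl⟩ := (hO _ _).1 hx
      exact (hO _ _).2 ⟨u * v⁻¹, P.mul_mem hu (P.inv_mem hv), by simp [mul_smul]⟩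
  have hOΓ : ∀ γ ∉ Δ, ∀ δ ∈ O γ, δ ∉ Δ := fun γ hγ δ hδ => by
    obtain ⟨v, hv, rfl⟩ := (hO _ _).1 hδ
    exact hPΓ v hv γ hγ
  have hOo : ∀ γ, (O γ : Set Ω) = orbit P γ := fun γ => Set.ext fun δ =>
    (hO _ _).trans ⟨fun ⟨u, hu, e⟩ => ⟨⟨u, hu⟩, e⟩, fun ⟨u, e⟩ => ⟨u, u.2, e⟩⟩
  have hOc : ∀ γ ∉ Δ, #(O γ) = p := fun γ hγ => by
    obtain ⟨j, hj⟩ := hP.card_orbit γ
    rw [← hOo, Nat.card_coe_set_eq, Set.ncard_coe_finset] at hj
    have h1 := card_le_card (s := O γ) (t := Δᶜ) fun δ hδ => mem_compl.2 (hOΓ γ hγ δ hδ)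
    obtain ⟨u, hu, hu'⟩ := hmv γ hγ
    have h2 : 1 < #(O γ) := one_lt_card.2 ⟨_, hOP γ u hu _ (hOs γ), _, hOs γ, hu'⟩
    rw [card_compl, hn, hΔ, Nat.add_sub_cancel, hj] at h1
    rw [hj] at h2 ⊢
    have h3 : p ^ j < p ^ 2 := by nlinarith
    rw [Nat.pow_lt_pow_iff_right hp.one_lt] at h3
    rcases (by omega : j = 0 ∨ j = 1) with rfl | rfl <;> simp at h2 ⊢
  have hcyc : ∀ γ ∉ Δ, ∀ u ∈ P, u • γ ≠ γ → period u γ = p ∧ ∀ δ ∈ O γ, ∃ i : ℕ, u ^ i • γ = δ := by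
    intro γ hγ u hu hu'
    obtain ⟨j, hj⟩ := hP ⟨u, hu⟩
    exact period_eq_prime hp (congrArg Subtype.val hj) (hOP γ u hu) (hOc γ hγ).le (hOs γ) hu'
  have hfixO : ∀ γ ∉ Δ, ∀ u ∈ P, u • γ = γ → ∀ δ ∈ O γ, u • δ = δ := by
    intro γ hγ u hu hu' δ hδ
    by_contra h
    obtain ⟨i, hi⟩ := (hcyc δ (hOΓ γ hγ δ hδ) u hu h).2 γ (hOe γ δ hδ ▸ hOs γ)
    refine h ((smul_left_cancel_iff (u ^ i)).1 ?_)
    rw [← mul_smul, ← pow_succ, pow_succ', mul_smul, hi, hu']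
  have hpw : ∀ γ ∉ Δ, ∀ u ∈ P, u • γ ≠ γ → ∀ v ∈ P, ∃ i : ℕ, ∀ δ ∈ O γ, v • δ = u ^ i • δ := by
    intro γ hγ u hu hu' v hv
    obtain ⟨i, hi⟩ := (hcyc γ hγ u hu hu').2 _ (hOP γ v hv _ (hOs γ))
    refine ⟨i, fun δ hδ => ?_⟩
    have := hfixO γ hγ ((u ^ i)⁻¹ * v) (P.mul_mem (P.inv_mem (P.pow_mem hu i)) hv)
      (by rw [mul_smul, ← hi, inv_smul_smul]) δ hδ
    rwa [mul_smul, inv_smul_eq_iff] at this
  have hext : ∀ u ∈ P, ∀ v ∈ P, (∀ γ ∉ Δ, u • γ = v • γ) → u = v := fun u hu v hv h =>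
    FaithfulSMul.eq_of_smul_eq_smul fun γ : Ω => by
      by_cases hγ : γ ∈ Δ
      · rw [hPΔ u hu γ hγ, hPΔ v hv γ hγ]
      · exact h γ hγ
  have hnocyc : ∀ γ ∉ Δ, ∀ u ∈ P, (∀ δ ∉ Δ, δ ∉ O γ → u • δ = δ) → u = 1 := by
    intro γ hγ u hu h
    by_contra h1
    obtain ⟨a, ha⟩ := exists_smul_ne (α := Ω) h1
    obtain ⟨j, hj⟩ := hP ⟨u, hu⟩
    refine hcon ((jor_of_pelt hp (congrArg Subtype.val hj) (S := O γ) (fun δ hδ => ?_) (hOc γ hγ).le
      ha).alt_of_prime hprim (by rwa [hOc γ hγ]) (by omega) (by rw [hOc γ hγ]; omega))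
    by_cases hδ' : δ ∈ Δ
    · exact hPΔ u hu δ hδ'
    · exact h δ hδ' hδ
  set N := Subgroup.normalizer (P : Set G) with hNdef
  have hNP : ∀ n ∈ N, ∀ u ∈ P, n * u * n⁻¹ ∈ P := fun n hn u hu =>
    (Subgroup.mem_normalizer_iff.1 hn u).1 hu
  have hNΔ : ∀ n ∈ N, ∀ a ∈ Δ, n • a ∈ Δ := fun n hn a ha => by
    by_contra h
    obtain ⟨u, hu, hu'⟩ := hmv _ h
    exact hu' (smul_fixed_of_mem_normalizer hn (fun u hu => hPΔ u hu a ha) u hu)
  have hNΓ : ∀ n ∈ N, ∀ a ∉ Δ, n • a ∉ Δ := fun n hn a ha h =>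
    ha (by simpa using hNΔ _ (N.inv_mem hn) _ h)
  have hNO : ∀ n ∈ N, ∀ γ, ∀ δ ∈ O γ, n • δ ∈ O (n • γ) := fun n hn γ δ hδ => by
    obtain ⟨u, hu, rfl⟩ := (hO _ _).1 hδ
    exact (hO _ _).2 ⟨_, hNP n hn u hu, by simp [mul_smul]⟩
  have hNO' : ∀ n ∈ N, ∀ γ ∉ Δ, n • O γ = O (n • γ) := fun n hn γ hγ =>
    eq_of_subset_of_card_le (fun x hx => by
      obtain ⟨δ, hδ, rfl⟩ := mem_smul_finset.1 hx
      exact hNO n hn γ δ hδ) (by rw [card_smul_finset, hOc γ hγ, hOc _ (hNΓ n hn γ hγ)])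
  let X : SubMulAction N (Finset Ω) :=
    { carrier := (Δᶜ.image O : Finset (Finset Ω))
      smul_mem' := fun n S hS => by
        obtain ⟨γ, hγ, rfl⟩ := mem_image.1 hS
        exact mem_image.2 ⟨_, mem_compl.2 (hNΓ n n.2 γ (mem_compl.1 hγ)),
          (hNO' n n.2 γ (mem_compl.1 hγ)).symm⟩ }
  have hXc : #(Δᶜ.image O) = k := by
    have := card_eq_sum_card_fiberwise (s := Δᶜ) (t := Δᶜ.image O) (f := O)
      fun x hx => mem_image_of_mem O hx
    rw [sum_congr rfl (g := fun _ => p) fun S hS => ?_, sum_const, smul_eq_mul, card_compl, hn, hΔ,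
      Nat.add_sub_cancel] at this
    · exact (Nat.eq_of_mul_eq_mul_right hp.pos this).symm
    obtain ⟨γ, hγ, rfl⟩ := mem_image.1 hS
    rw [← hOc γ (mem_compl.1 hγ)]
    congr 1; ext δ
    simp only [mem_filter, mem_compl]
    exact ⟨fun h => h.2 ▸ hOs δ, fun h => ⟨hOΓ γ (mem_compl.1 hγ) δ h, hOe γ δ h⟩⟩
  let K := (toPermHom N X).ker
  have hK : ∀ x ∈ K, ∀ γ ∉ Δ, ∀ δ ∈ O γ, (x : G) • δ ∈ O γ := fun x hx γ hγ δ hδ => by
    have : (x : G) • O γ = O γ := congrArg (fun σ : Equiv.Perm X =>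
      (σ ⟨O γ, mem_image_of_mem O (mem_compl.2 hγ)⟩).1) hx
    rw [← this]; exact smul_mem_smul_finset hδ
  have hKi : K.index ∣ k.factorial := by
    rw [Subgroup.index_ker, ← hXc, ← Set.ncard_coe_finset, ← Nat.card_coe_set_eq]
    exact (Subgroup.card_subgroup_dvd_card _).trans (Nat.card_perm (α := X)).dvd
  let Y : SubMulAction N Ω := { carrier := Δ, smul_mem' := fun n a ha => hNΔ n n.2 a ha }
  have hYc : Nat.card Y = r := (Nat.card_coe_set_eq (Δ : Set Ω)).trans (by simpa using hΔ)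
  let ψ := toPermHom N Y
  have hψ : Surjective ψ := fun σ => by
    obtain ⟨g, hg⟩ := exists_smul_eq_of_card_eq hGr (ι := Y) (by rw [← Nat.card_eq_fintype_card, hYc])
      Subtype.val (fun i => σ i) Subtype.val_injective (Subtype.val_injective.comp σ.injective)
    obtain ⟨n, hn, hn'⟩ := exists_normalizer_eq_on hP hPi (g := g) fun x hx u hu =>
      hPΔ u hu _ ((hg ⟨x, hx⟩).symm ▸ (σ ⟨x, hx⟩).2)
    exact ⟨⟨n, hn⟩, Equiv.ext fun a => Subtype.ext ((hn' a a.2).trans (hg a))⟩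
  haveI hKn : (K.map ψ).Normal := Subgroup.Normal.map inferInstance ψ hψ
  have hK1 : K.map ψ ≠ ⊥ := fun h => by
    have := (K.index_map_dvd hψ).trans hKi
    rw [h, Subgroup.index_bot, Nat.card_perm, hYc] at this
    exact absurd (Nat.le_of_dvd k.factorial_pos this) (not_le.2 (Nat.factorial_lt_of_lt hk hrk))
  let M := K ⊓ (Subgroup.centralizer (P : Set G)).subgroupOf N
  haveI hMn : (M.map ψ).Normal := Subgroup.Normal.map inferInstance ψ hψ
  have hMp : ∀ x ∈ M, x ^ p = 1 := fun x hx => Subtype.ext <| hΓ _ fun γ hγ => by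
    obtain ⟨u, hu, he⟩ := (hO _ _).1 (hK x hx.1 γ hγ γ (hOs γ))
    have hc : Commute (x : G) u := (hx.2 u hu).symm
    have : ∀ i : ℕ, (x : G) ^ i • γ = u ^ i • γ := fun i => by
      induction i with
      | zero => simp
      | succ i ih =>
        rw [pow_succ', mul_smul, ih, ← mul_smul, (hc.pow_right i).eq, mul_smul, ← he, ← mul_smul,
          ← pow_succ]
    rw [Subgroup.coe_pow, this]
    by_cases h : u • γ = γ
    · exact (stabilizer G γ).pow_mem h p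
    · exact pow_smul_eq_iff_period_dvd.2 (hcyc γ hγ u hu h).1.dvd
  have hp3 : p ≠ 2 := by omega
  haveI : Fintype Y := Fintype.ofFinite Y
  have hA2 : 5 ≤ r → 2 ∣ Nat.card (alternatingGroup Y) := fun h5 => by
    haveI : Nontrivial Y := Finite.one_lt_card_iff_nontrivial.1 (by omega)
    have := Nat.dvd_trans (by decide : 2 * 2 ∣ Nat.factorial 4) (Nat.factorial_dvd_factorial
      (show 4 ≤ Nat.card Y by omega))
    rw [← Nat.card_perm, ← two_mul_nat_card_alternatingGroup] at this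
    exact Nat.dvd_of_mul_dvd_mul_left two_pos this
  have hM1 : M.map ψ = ⊥ := by
    by_contra h
    obtain ⟨j, hj⟩ := IsPGroup.iff_card.1 (show IsPGroup p (M.map ψ) from
      IsPGroup.map (fun x => ⟨1, Subtype.ext (by simpa using hMp x x.2)⟩) ψ)
    have hd : ∀ q, q.Prime → q ∣ Nat.card (M.map ψ) → q = p := fun q hq h =>
      (Nat.prime_dvd_prime_iff_eq hq hp).1 (hq.dvd_of_dvd_pow (hj ▸ h))
    by_cases h5 : 5 ≤ r
    · exact hp3 (hd 2 Nat.prime_two ((hA2 h5).trans (Subgroup.card_dvd_of_le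
        (Equiv.Perm.alternatingGroup_le_of_normal (by omega)
          ((Subgroup.nontrivial_iff_ne_bot _).2 h))))).symm
    haveI := isPretransitive_of_normal (α := Y) _ h
    obtain ⟨a⟩ : Nonempty Y := (Nat.card_pos_iff.1 (by omega)).1
    have h1 : r ∣ Nat.card (M.map ψ) := ⟨_, by rw [← hYc]; exact card_eq_card_mul_stabilizer a⟩
    rcases (by omega : r = 3 ∨ r = 4) with rfl | rfl
    · exact h9 ⟨rfl, (hd 3 Nat.prime_three h1).symm⟩
    · exact hp3 (hd 2 Nat.prime_two (Nat.dvd_trans (by decide) h1)).symm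
  have hcent : ∀ a b : N, (∀ v ∈ P, (a : G) * v * a⁻¹ = b * v * b⁻¹) → b⁻¹ * a ∈ K → ψ b = ψ a := by
    intro a b h hab
    have : ψ (b⁻¹ * a) ∈ M.map ψ := ⟨_, ⟨hab, fun v hv => by
      have := h v hv
      simp only [Subgroup.coe_subtype, Subgroup.coe_mul, Subgroup.coe_inv] at this ⊢
      rw [mul_assoc _ _ v, eq_mul_inv_iff_mul_eq.1 this.symm |>.symm]
      group⟩, rfl⟩
    rwa [hM1, Subgroup.mem_bot, map_mul, map_inv, inv_mul_eq_one] at this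
  have hpowO : ∀ γ (a b : G), b ∈ P → (∀ δ ∈ O γ, a • δ = b • δ) → ∀ i : ℕ, ∀ δ ∈ O γ,
      a ^ i • δ = b ^ i • δ := fun γ a b hb h i => by
    induction i with
    | zero => simp
    | succ i ih =>
      intro δ hδ
      rw [pow_succ, pow_succ, mul_smul, mul_smul, h δ hδ, ih _ (hOP γ b hb δ hδ)]
  have hmul' : ∀ x ∈ K, ∀ γ ∉ Δ, ∀ u ∈ P, u • γ ≠ γ → ∀ m : ℕ,
      (∀ δ ∈ O γ, ((x : G) * u * x⁻¹) • δ = u ^ m • δ) →
      ∀ v ∈ P, ∀ δ ∈ O γ, ((x : G) * v * x⁻¹) • δ = v ^ m • δ := by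
    intro x hx γ hγ u hu hu' m hm v hv δ hδ
    obtain ⟨i, hi⟩ := hpw γ hγ u hu hu' v hv
    rw [hpowO γ v _ (P.pow_mem hu i) hi m δ hδ, ← pow_mul, mul_comm i, pow_mul,
      ← hpowO γ _ _ (P.pow_mem hu m) hm i δ hδ, Subgroup.coe_inv, conj_pow, mul_smul, mul_smul,
      mul_smul, mul_smul]
    exact congrArg _ (hi _ (hK _ (K.inv_mem hx) γ hγ δ hδ))
  have hmul : ∀ x ∈ K, ∀ γ ∉ Δ, ∃ m : ℕ, ∀ v ∈ P, ∀ δ ∈ O γ,
      ((x : G) * v * x⁻¹) • δ = v ^ m • δ := by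
    intro x hx γ hγ
    obtain ⟨u, hu, hu'⟩ := hmv γ hγ
    obtain ⟨m, hm⟩ := hpw γ hγ u hu hu' _ (hNP x x.2 u hu)
    exact ⟨m, hmul' x hx γ hγ u hu hu' m hm⟩
  by_cases h5 : 5 ≤ r
  · have hA := Equiv.Perm.alternatingGroup_le_of_normal (α := Y) (by omega)
      ((Subgroup.nontrivial_iff_ne_bot _).2 hK1)
    have hc : Subgroup.center (alternatingGroup Y) = ⊤ := by
      refine eq_top_iff.2 fun σ _ => Subgroup.mem_center_iff.2 fun τ => Subtype.ext ?_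
      obtain ⟨a, ha, ea⟩ := hA σ.2
      obtain ⟨b, hb, eb⟩ := hA τ.2
      rw [Subgroup.coe_mul, Subgroup.coe_mul, ← ea, ← eb, ← map_mul, ← map_mul]
      refine hcent _ _ (fun v hv => hext _ (hNP _ (a * b).2 v hv) _ (hNP _ (b * a).2 v hv)
        fun γ hγ => ?_) (K.mul_mem (K.inv_mem (K.mul_mem hb ha)) (K.mul_mem ha hb))
      obtain ⟨m, hm⟩ := hmul a ha γ hγ
      obtain ⟨l, hl⟩ := hmul b hb γ hγ
      have e1 := hm _ (hNP _ b.2 v hv) γ (hOs γ)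
      have e2 := hl _ (hNP _ a.2 v hv) γ (hOs γ)
      have e3 := hl _ (P.pow_mem hv m) γ (hOs γ)
      have e4 := hm _ (P.pow_mem hv l) γ (hOs γ)
      simp only [Subgroup.coe_inv, conj_pow, ← pow_mul] at e1 e2 e3 e4
      rw [e3] at e1
      rw [e4, mul_comm l, ← e1] at e2
      simpa [mul_assoc] using e2.symm
    rw [alternatingGroup.center_eq_bot (by omega)] at hc
    have := hA2 h5
    rw [← Subgroup.card_top, ← hc, Subgroup.card_bot] at this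
    omega
  refine hK1 (eq_bot_iff.2 ?_)
  rintro _ ⟨x, hx, rfl⟩
  refine perm_eq_one_of_comm (by omega) fun τ => ?_
  obtain ⟨n, rfl⟩ := hψ τ
  obtain ⟨m, hm⟩ : ∃ m : ℕ, ∀ v ∈ P, (x : G) * v * x⁻¹ = v ^ m := by
    by_cases hA : ∃ γ ∉ Δ, ∀ v ∈ P, v • γ = γ → v = 1
    · obtain ⟨γ, hγ, h⟩ := hA
      obtain ⟨m, hm⟩ := hmul x hx γ hγ
      refine ⟨m, fun v hv => (inv_mul_eq_one.1 (h _ (P.mul_mem (P.inv_mem (P.pow_mem hv m))
        (hNP _ x.2 v hv)) ?_)).symm⟩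
      rw [mul_smul, inv_smul_eq_iff]; exact hm v hv γ (hOs γ)
    push Not at hA
    obtain ⟨γ₁, hγ₁⟩ := exists_notMem_finset Δ (by omega)
    obtain ⟨m, hm⟩ := hmul x hx γ₁ hγ₁
    refine ⟨m, fun v hv => hext _ (hNP _ x.2 v hv) _ (P.pow_mem hv m) fun γ₂ hγ₂ => ?_⟩
    by_cases h12 : γ₂ ∈ O γ₁
    · exact hm v hv γ₂ h12
    obtain ⟨u, hu, hu1, hu'⟩ : ∃ u ∈ P, u ≠ 1 ∧ ∀ δ ∉ Δ, δ ∉ O γ₁ → δ ∉ O γ₂ → u • δ = δ := by
      by_cases h3 : ∃ γ₃ ∉ Δ, γ₃ ∉ O γ₁ ∧ γ₃ ∉ O γ₂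
      · obtain ⟨γ₃, hγ₃, h13, h23⟩ := h3
        obtain ⟨u, hu, h1, h2⟩ := hA γ₃ hγ₃
        refine ⟨u, hu, h2, fun δ hδ h14 h24 => hfixO γ₃ hγ₃ u hu h1 δ ?_⟩
        by_contra h34
        have hne : ∀ a b, b ∉ O a → O a ≠ O b := fun a b h e => h (e ▸ hOs b)
        have := card_le_card (s := {O γ₁, O γ₂, O γ₃, O δ}) (t := Δᶜ.image O) (by
          simp only [insert_subset_iff, singleton_subset_iff]
          refine ⟨?_, ?_, ?_, ?_⟩ <;> exact mem_image_of_mem O (mem_compl.2 ‹_›))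
        rw [card_insert_of_notMem (by simp [hne _ _ h12, hne _ _ h13, hne _ _ h14]),
          card_insert_of_notMem (by simp [hne _ _ h23, hne _ _ h24]), card_pair (hne _ _ h34)] at this
        omega
      · obtain ⟨u, hu, -, h2⟩ := hA γ₁ hγ₁
        exact ⟨u, hu, h2, fun δ hδ h1 h2 => absurd ⟨δ, hδ, h1, h2⟩ h3⟩
    have hu2 : u • γ₂ ≠ γ₂ := fun e => hu1 (hnocyc γ₁ hγ₁ u hu fun δ hδ h1 => by
      by_cases h2 : δ ∈ O γ₂
      · exact hfixO γ₂ hγ₂ u hu e δ h2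
      · exact hu' δ hδ h1 h2)
    refine hmul' x hx γ₂ hγ₂ u hu hu2 m (fun δ _ => ?_) v hv γ₂ (hOs _)
    rw [inv_mul_eq_one.1 (hnocyc γ₂ hγ₂ _ (P.mul_mem (P.inv_mem (P.pow_mem hu m))
      (hNP _ x.2 u hu)) fun δ hδ h2 => ?_)]
    · rfl
    rw [mul_smul, inv_smul_eq_iff]
    by_cases h1 : δ ∈ O γ₁
    · exact hm u hu δ h1
    have hout : ∀ γ ∉ Δ, δ ∉ O γ → (x : G)⁻¹ • δ ∉ O γ := fun γ hγ h e =>
      h (by simpa using hK x hx γ hγ _ e)
    rw [(stabilizer G δ).pow_mem (hu' δ hδ h1 h2) m, mul_smul, mul_smul,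
      hu' _ (hNΓ _ (N.inv_mem x.2) δ hδ) (hout _ hγ₁ h1) (hout _ hγ₂ h2), smul_inv_smul]
  rw [← map_mul, ← map_mul]
  refine hcent _ _ (fun v hv => ?_) ?_
  · have e1 := hm _ (hNP _ n.2 v hv)
    rw [conj_pow, ← hm v hv] at e1
    simpa [mul_assoc] using e1
  · rw [mul_inv_rev, mul_assoc]
    exact K.mul_mem (K.inv_mem hx) (by
      simpa [mul_assoc] using (inferInstance : K.Normal).conj_mem x hx n⁻¹)

end Cfsg.Lib.Perm
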