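import Cfsg.Agent.Lib.Perm.Plane3

/-!
# A doubly transitive collineation group contains a nontrivial perspectivity
-/

set_option autoImplicit false

namespace Cfsg.Lib.Perm

open MulAction Subgroup Cfsg.Lib.Transfer

theorem exists_central_pow {G : Type*} [Group G] [Finite G] {p : ℕ} (hp : p.Prime) {S : Subgroup G} (hS : IsPGroup p S)
    (h : p ∣ Nat.card S) : ∃ ζ ∈ S, ζ ≠ 1 ∧ ζ ^ p = 1 ∧ ∀ u ∈ S, u * ζ = ζ * u := by
  haveI := Fact.mk hp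
  haveI : Nontrivial S := Finite.one_lt_card_iff_nontrivial.1 (hp.one_lt.trans_le (Nat.le_of_dvd Nat.card_pos h))
  obtain ⟨k, hk, e⟩ := (hS.to_subgroup (center S)).nontrivial_iff_card.1 hS.center_nontrivial
  obtain ⟨⟨⟨ζ, h1⟩, h2⟩, h3⟩ := exists_prime_orderOf_dvd_card' (G := center S) p (e ▸ dvd_pow_self p hk.ne')
  rw [← orderOf_coe, ← orderOf_coe] at h3
  exact ⟨ζ, h1, fun e => hp.one_lt.ne' (by rw [← h3]; exact orderOf_eq_one_iff.2 e), orderOf_dvd_iff_pow_eq_one.1 h3.dvd,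
    fun u hu => congrArg Subtype.val (mem_center_iff.1 h2 ⟨u, hu⟩)⟩

theorem fix_iff_of_cover {G α : Type*} [Group G] [MulAction G α] {Φ K : Subgroup G} {g : G} (h1 : Φ ≤ K) (h2 : g ∈ K)
    (h3 : ∀ k ∈ K, k ∈ Φ ∨ g⁻¹ * k ∈ Φ) (p : α) : (∀ k ∈ K, k • p = p) ↔ (∀ k ∈ Φ, k • p = p) ∧ g • p = p :=
  ⟨fun h => ⟨fun k hk => h k (h1 hk), h g h2⟩, fun h k hk => (h3 k hk).elim (h.1 k) fun h5 => by
    rw [← mul_inv_cancel_left g k, mul_smul, h.1 _ h5, h.2]⟩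

theorem orbit_sylow_eq {G α : Type*} [Group G] [Finite G] [MulAction G α] [Finite α] {p e : ℕ} (hp : p.Prime)
    {S H : Subgroup G} (h1 : S ≤ H) (h2 : ¬ p ∣ S.relIndex H) (y : α) (h : {z | ∃ h ∈ H, h • y = z}.ncard = p ^ e) :
    {z | ∃ h ∈ S, h • y = z} = {z | ∃ h ∈ H, h • y = z} :=
  Set.eq_of_subset_of_ncard_le (fun _ ⟨g, hg, e⟩ => ⟨g, h1 hg, e⟩) (h ▸ Nat.le_of_dvd
    ((Set.ncard_pos (Set.toFinite _)).2 ⟨y, 1, one_mem _, one_smul _ _⟩) (dvd_orbit_sylow hp h1 h2 y h.symm.dvd))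

namespace Pl

variable {G P L : Type*} [Group G] [MulAction G P] [MulAction G L] [Finite G] (D : Pl G P L)
  (h2 : ∀ a b c d : P, a ≠ b → c ≠ d → ∃ g : G, g • a = c ∧ g • b = d) (hN : ∀ (g : G) l, D.Ax g l → g = 1)
include h2 hN

theorem odd_of_two : Odd D.n := by
  haveI := D.finite
  by_contra hn
  have hn := even_iff_two_dvd.1 (Nat.not_odd_iff_even.1 hn)
  obtain ⟨l₀⟩ : Nonempty L := (Nat.card_pos_iff.1 (by rw [D.cardB]; omega)).1
  obtain ⟨x, -⟩ := D.meet' l₀ l₀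
  obtain ⟨y, -, hy, -⟩ := D.exists_third l₀ x x
  obtain ⟨S, -, hS, hP, hi⟩ := exists_sylowIn_ge (p := 2) (H := stabilizer G x) IsPGroup.of_bot bot_le
  have orb : ∀ e, 2 ^ e ∣ D.n → ∀ y ≠ x, 2 ^ e ∣ {z | ∃ h ∈ S, h • y = z}.ncard := fun e he y hy =>
    dvd_orbit_sylow Nat.prime_two hS hi y (by
      rw [D.orbit_pt h2 hy.symm]; exact dvd_add (he.pow two_ne_zero) he)
  obtain ⟨ζ, z1, z2, z3, z4⟩ := exists_central_pow Nat.prime_two hP
    (card_orbit_mul S y ▸ (pow_one 2 ▸ orb 1 (by rwa [pow_one]) y hy).mul_right _)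
  rw [sq] at z3
  obtain ⟨k, k1, k2⟩ := D.exists_ord' ((cfg_or_ax z2 z3).resolve_right fun ⟨m, h⟩ => z2 (hN ζ m h))
  obtain ⟨l, l1, l2⟩ := baer (D := D) z2 z3
  rw [(k2 l l1).2] at l2
  obtain ⟨e, k', h3, rfl⟩ := Nat.exists_eq_pow_mul_and_not_dvd (n := k) (fun e => by
    have := D.two; rw [← l2, e] at this; omega) 2 (by omega)
  have h4 := dvd_ncard_of_orbits_set S (2 ^ (e * 2)) (s := {p | ζ • p = p} \ {x}) (Set.toFinite _)
    (fun h hh y hy => ⟨show ζ • h • y = h • y by rw [← mul_smul, ← z4 h hh, mul_smul, hy.1],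
      fun e => hy.2 (MulAction.injective h (e.trans (hS hh).symm))⟩)
    (fun y hy => orb _ (by rw [← l2, mul_pow, pow_mul]; exact dvd_mul_right _ _) y hy.2)
  rw [Set.ncard_diff_singleton_of_mem (show x ∈ {p : P | ζ • p = p} from hS z1), k1, Nat.add_sub_cancel, mul_pow, pow_mul,
    Nat.dvd_add_right (dvd_mul_right _ _), sq, Nat.mul_dvd_mul_iff_left (by positivity)] at h4
  rcases e with _ | e
  · rw [← l2] at hn
    exact h3 (by simpa using Nat.prime_two.dvd_of_dvd_pow hn)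
  · exact h3 ((dvd_pow_self 2 e.succ_ne_zero).trans h4)

theorem prime_pow (hc : D.Cfg (fun _ => True) fun _ => True) : ∃ p k, p.Prime ∧ D.n = p ^ k := by
  haveI := D.finite
  haveI := D.dual.finite
  have hn := D.odd_of_two h2 hN
  obtain ⟨Φ, ⟨⟨a, ha⟩, hΦ, m, e, hm, hm'⟩, hmax⟩ := Set.exists_max_image {Φ : Subgroup G | (∃ a, Nat.card Φ = 2 ^ a) ∧
    D.Cfg (fun p => ∀ g ∈ Φ, g • p = p) (fun l => ∀ g ∈ Φ, g • l = l) ∧ ∃ m e, D.n = m ^ e ∧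
      ∀ l : L, (∀ g ∈ Φ, g • l = l) → {p | (∀ g ∈ Φ, g • p = p) ∧ ¬ D.I p l}.ncard = m ^ 2} (fun Φ => Nat.card Φ)
      (Set.toFinite _) ⟨⊥, ⟨0, card_bot⟩, by simpa using hc, D.n, 1, (pow_one _).symm, fun l _ => by
        simpa using D.card_off l⟩
  have cl : ∀ K : Subgroup G, (∀ p q l, p ≠ q → (∀ g ∈ K, g • p = p) → (∀ g ∈ K, g • q = q) → D.I p l → D.I q l →
      ∀ g ∈ K, g • l = l) ∧ ∀ p l m, l ≠ m → (∀ g ∈ K, g • l = l) → (∀ g ∈ K, g • m = m) → D.I p l → D.I p m →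
      ∀ g ∈ K, g • p = p := fun K => ⟨fun _ _ _ h h1 h2 h3 h4 g hg => D.fix_line h h3 h4 (h1 g hg) (h2 g hg),
        fun _ _ _ h h1 h2 h3 h4 g hg => D.fix_pt h h3 h4 (h1 g hg) (h2 g hg)⟩
  obtain ⟨Q, hQ⟩ := D.sub _ _ (cl Φ).1 (cl Φ).2 hΦ
  have off : ∀ (l) (R : P → Prop), {p | R p.1 ∧ ¬ Q.I p l}.ncard = {p | (∀ g ∈ Φ, g • p = p) ∧ R p ∧ ¬ D.I p l}.ncard :=
    fun l R => by simp only [hQ]; exact ncard_subtype _ fun p => R p ∧ ¬ D.I p l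
  have hQn : Q.n = m := by
    obtain ⟨l⟩ := (Nat.card_pos_iff.1 (by rw [Q.cardB]; omega)).1
    have := off l fun _ => True
    simp only [true_and, Q.card_off, hm' l l.2] at this
    exact Nat.pow_left_injective two_ne_zero this
  have he : e ≠ 0 := fun h => by have := D.two; rw [hm, h, pow_zero] at this; omega
  have hmo : Odd Q.n := by rw [hQn]; exact ((Nat.odd_pow_iff he).1 (hm ▸ hn))
  have step : ∀ J, Φ ≤ J → 2 ^ (a + 1) ∣ Nat.card J → ∃ K ≤ J, Nat.card K = 2 ^ (a + 1) ∧ ∃ g ∈ K,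
      (∀ p : P, (∀ k ∈ K, k • p = p) ↔ (∀ k ∈ Φ, k • p = p) ∧ g • p = p) ∧
      (∀ p : L, (∀ k ∈ K, k • p = p) ↔ (∀ k ∈ Φ, k • p = p) ∧ g • p = p) ∧
      ∃ s : IAut fun (p : {p : P // ∀ g ∈ Φ, g • p = p}) (l : {l : L // ∀ g ∈ Φ, g • l = l}) => D.I p l, s * s = 1 ∧
        (∀ p : {p : P // ∀ g ∈ Φ, g • p = p}, s • p = p ↔ g • p.1 = p) ∧
        ∀ l : {l : L // ∀ g ∈ Φ, g • l = l}, s • l = l ↔ g • l.1 = l := by
    intro J h3 h4
    obtain ⟨K, k1, k2, k3, g, g1, g2, g3, g4⟩ := exists_step_two h3 ha h4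
    have i1 : Function.Involutive fun p : {p : P // ∀ g ∈ Φ, g • p = p} => (⟨g • p.1, fun u hu => by
        rw [← inv_smul_eq_iff, ← mul_smul, ← mul_smul, p.2 _ (g4 u hu)]⟩ : {p : P // ∀ g ∈ Φ, g • p = p}) :=
      fun p => Subtype.ext (by simp only [← mul_smul, p.2 _ g3])
    have i2 : Function.Involutive fun p : {p : L // ∀ g ∈ Φ, g • p = p} => (⟨g • p.1, fun u hu => by
        rw [← inv_smul_eq_iff, ← mul_smul, ← mul_smul, p.2 _ (g4 u hu)]⟩ : {p : L // ∀ g ∈ Φ, g • p = p}) :=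
      fun p => Subtype.ext (by simp only [← mul_smul, p.2 _ g3])
    exact ⟨K, k1, k3, g, g1, fix_iff_of_cover k2 g1 g2, fix_iff_of_cover k2 g1 g2, ⟨(i1.toPerm, i2.toPerm), fun p l => D.inv g p l⟩,
      Subtype.ext (Prod.ext (Equiv.ext i1) (Equiv.ext i2)), fun p => Subtype.ext_iff, fun p => Subtype.ext_iff⟩
  obtain ⟨p, k, hp, hk⟩ := wagner hmo fun z l x M h3 h4 _ _ => by
    have h3' : ¬ D.I z l := (hQ _ _).not.1 h3
    have h4' : D.I x l := (hQ _ _).1 h4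
    have hzx : z.1 ≠ x := fun e => h3' (e ▸ h4')
    have d1 : 2 ^ (a + 1) ∣ Nat.card ↥(stabilizer G z.1 ⊓ stabilizer G x.1) := by
      have d2 : 2 ^ (a + 1) ∣ Nat.card (stabilizer G x.1) := by
        rw [card_orbit_mul _ z.1, D.orbit_pt h2 hzx.symm, pow_succ']
        exact mul_dvd_mul (even_iff_two_dvd.1 (hn.pow.add_odd hn))
          (ha ▸ card_dvd_of_le (le_inf (fun u hu => x.2 u hu) fun u hu => z.2 u hu))
      obtain ⟨K, k1, k2, g, -, f1, -, s, s1, s2, -⟩ := step _ (fun u hu => x.2 u hu) d2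
      obtain ⟨y, y1, y2⟩ : ∃ y, y ≠ x ∧ s • y = y := by
        by_cases h5 : s = 1
        · exact ⟨z, fun e => hzx (e ▸ rfl), by rw [h5, one_smul]⟩
        obtain ⟨l', -, h6⟩ := baer (D := Q) h5 s1
        obtain ⟨y, y1, y2⟩ := Set.exists_ne_of_one_lt_ncard (h6 ▸ Q.two) x
        exact ⟨y, y2, y1.1⟩
      rw [D.card_two h2 hzx (Subtype.val_injective.ne y1), ← k2]
      exact card_dvd_of_le (le_inf ((f1 _).2 ⟨y.2, (s2 y).1 y2⟩) k1)
    rw [card_orbit_mul _ l.1, (D.orbit_line h2 h4' h3').1, (D.orbit_line h2 h4' h3').2] at d1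
    obtain ⟨K, k1, k2, g, g1, f1, f2, s, s1, s2, s3⟩ := step _ (le_inf (le_inf (fun u hu => z.2 u hu) fun u hu => x.2 u hu)
      fun u hu => l.2 u hu) (((Nat.coprime_two_left.2 hn).pow_left _).dvd_of_dvd_mul_left d1)
    have hK := fun h => (hmax K ⟨⟨_, k2⟩, h⟩).not_gt (by
      rw [k2, ha]; exact Nat.pow_lt_pow_right one_lt_two (Nat.lt_succ_self a))
    simp only [f1, f2] at hK
    have s4 : s ≠ 1 := fun h5 => by
      have e1 : ∀ p : P, (∀ g ∈ Φ, g • p = p) ∧ g • p = p ↔ ∀ g ∈ Φ, g • p = p := fun p =>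
        and_iff_left_of_imp fun h => (s2 ⟨p, h⟩).1 (by rw [h5, one_smul])
      have e2 : ∀ p : L, (∀ g ∈ Φ, g • p = p) ∧ g • p = p ↔ ∀ g ∈ Φ, g • p = p := fun p =>
        and_iff_left_of_imp fun h => (s3 ⟨p, h⟩).1 (by rw [h5, one_smul])
      simp only [e1, e2] at hK
      exact hK ⟨hΦ, m, e, hm, hm'⟩
    obtain ⟨b, hb⟩ := (cfg_or_ax (D := Q) s4 s1).resolve_left fun h5 => by
      have h6 : D.Cfg (fun p => (∀ g ∈ Φ, g • p = p) ∧ g • p = p) fun p => (∀ g ∈ Φ, g • p = p) ∧ g • p = p := by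
        obtain ⟨p₁, p₂, p₃, l₁, l₂, l₃, a1, a2, a3, b1, b2, b3, h⟩ := h5
        simp only [hQ] at h
        exact ⟨p₁, p₂, p₃, l₁, l₂, l₃, ⟨p₁.2, (s2 _).1 a1⟩, ⟨p₂.2, (s2 _).1 a2⟩, ⟨p₃.2, (s2 _).1 a3⟩, ⟨l₁.2, (s3 _).1 b1⟩,
          ⟨l₂.2, (s3 _).1 b2⟩, ⟨l₃.2, (s3 _).1 b3⟩, h⟩
      have h7 := cl K
      simp only [f1, f2] at h7
      obtain ⟨k, -, h8⟩ := D.exists_ord h7.1 h7.2 h6
      obtain ⟨l', h9, h10⟩ := baer (D := Q) s4 s1
      simp only [s2, off l' fun p => g • p = p, ← and_assoc, (h8 l' ⟨l'.2, (s3 _).1 h9⟩).2, hQn] at h10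
      exact hK ⟨h6, k, 2 * e, by rw [pow_mul, h10, hm], fun l hl => (h8 l hl).2⟩
    obtain ⟨c, hc⟩ := hb.exists_ce
    exact ⟨s, c, b, ⟨fun h5 => hmo.not_two_dvd_nat (El_dvd ⟨hb, c, h5, hc⟩ s4 Nat.prime_two (by rw [sq, s1])), s4, s1, hb, hc⟩,
      (s2 _).2 (k1 g1).1.1, (s3 _).2 (k1 g1).2, (s2 _).2 (k1 g1).1.2⟩
  exact ⟨p, k * e, hp, by rw [pow_mul, ← hk, hQn, hm]⟩

theorem false_of_two (hc : D.Cfg (fun _ => True) fun _ => True) : False := by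
  haveI := D.finite
  haveI := D.dual.finite
  obtain ⟨p, s, hp, hn⟩ := D.prime_pow h2 hN hc
  haveI := Fact.mk hp
  have hpn : p ∣ D.n := hn ▸ dvd_pow_self p fun h => by have := D.two; rw [hn, h, pow_zero] at this; omega
  obtain ⟨M⟩ : Nonempty L := (Nat.card_pos_iff.1 (by rw [D.cardB]; omega)).1
  obtain ⟨x, hx, -⟩ := D.meet' M M
  obtain ⟨z, hz, hzx, -⟩ := D.exists_third M x x
  obtain ⟨S, -, hS, hP, hi⟩ := exists_sylowIn_ge (p := p) (H := stabilizer G x ⊓ stabilizer G M) IsPGroup.of_bot bot_le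
  have o1 : {w | ∃ g ∈ stabilizer G x ⊓ stabilizer G M, g • z = w} = {w | D.I w M ∧ w ≠ x} := Set.ext fun w =>
    ⟨fun ⟨g, ⟨g1, g2⟩, e⟩ => e ▸ ⟨D.smul_mem hz g2, fun e => hzx (MulAction.injective g (e.trans g1.symm))⟩,
      fun ⟨w1, w2⟩ => (h2 x z x w hzx.symm w2.symm).imp fun g ⟨g1, g2⟩ => ⟨⟨g1, D.line_eq w2 (g2 ▸ (D.inv _ _ _).2 hz)
        (D.smul_mem' hx g1) w1 hx⟩, g2⟩⟩
  have o2 := (orbit_sylow_eq hp hS hi z (by rw [o1, D.card_diff hx, hn])).trans o1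
  have c1 := card_orbit_mul S z
  have c2 := card_orbit_mul (stabilizer G x ⊓ stabilizer G M) z
  rw [o2, D.card_diff hx] at c1
  rw [o1, D.card_diff hx, inf_right_comm, (inf_eq_left (a := stabilizer G x ⊓ stabilizer G z)).2
    (fun g hg => D.fix_line hzx hz hx hg.2 hg.1), ← card_mul_relIndex hS, c1, mul_assoc] at c2
  have c3 := Nat.eq_of_mul_eq_mul_left (zero_lt_two.trans_le D.two) c2
  obtain ⟨ζ, z1, z2, -, z4⟩ := exists_central_pow hp hP (c1 ▸ hpn.mul_right _)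
  have hUP : IsPGroup p ↥(S ⊓ stabilizer G z) := hP.to_inf_left
  have hUx : ∀ u ∈ S ⊓ stabilizer G z, u • x = x := fun u hu => (hS hu.1).1
  have hUz : ∀ u ∈ S ⊓ stabilizer G z, u • z = z := fun u hu => hu.2
  have hUM : ∀ u ∈ S ⊓ stabilizer G z, u • M = M := fun u hu => (hS hu.1).2
  have z5 : ∀ u ∈ S ⊓ stabilizer G z, u * ζ = ζ * u := fun u hu => z4 u hu.1
  generalize S ⊓ stabilizer G z = U at c3 hUP hUx hUz hUM z5
  have syl : ∀ e e' : P, e ≠ e' → (∀ u ∈ U, u • e = e) → (∀ u ∈ U, u • e' = e') →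
      ¬ p ∣ U.relIndex (stabilizer G e ⊓ stabilizer G e') := fun e e' h h3 h4 => by
    have := card_mul_relIndex (le_inf h3 h4 : U ≤ stabilizer G e ⊓ stabilizer G e')
    rw [D.card_two h2 h hzx.symm, ← c3] at this
    rwa [Nat.eq_of_mul_eq_mul_left Nat.card_pos this]
  have trU : ∀ e, D.I e M → (∀ u ∈ U, u • e = e) → ∀ l m, D.I e l → l ≠ M → D.I e m → m ≠ M → ∃ u ∈ U, u • l = m := by
    intro e h3 h4 l m l1 l2 m1 m2
    obtain ⟨e', h5, h6, h7⟩ : ∃ e', e' ≠ e ∧ D.I e' M ∧ ∀ u ∈ U, u • e' = e' := by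
      by_cases h : x = e
      · exact ⟨z, h ▸ hzx, hz, hUz⟩
      · exact ⟨x, h, hx, hUx⟩
    have h8 := D.orbit_line h2 l1 fun h => l2 (D.line_eq h5 h l1 h6 h3)
    exact ((orbit_sylow_eq hp (le_inf h7 h4) (syl _ _ h5 h7 h4) l (by rw [h8.1, h8.2, hn])).trans h8.1).ge
      ⟨m1, fun h => m2 (D.line_eq h5 h m1 h6 h3)⟩
  have nl : ∀ l, (∀ u ∈ U, u • l = l) → l = M := fun l h => by_contra fun hne => by
    obtain ⟨e, e1, e2⟩ := D.meet' l M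
    obtain ⟨m, m1, m2, m3⟩ := D.dual.exists_third e l M
    obtain ⟨u, hu, h3⟩ := trU e e2 (fun u hu => D.fix_pt hne e1 e2 (h u hu) (hUM u hu)) l m e1 hne m1 m3
    exact m2 (h3.symm.trans (h u hu))
  have np : ∀ w, ¬ D.I w M → ¬ ∀ u ∈ U, u • w = w := fun w h3 h => by
    obtain ⟨l, l1, l2⟩ := D.join' w x
    exact h3 (nl l (fun u hu => D.fix_line (fun e : w = x => h3 (e ▸ hx)) l1 l2 (h u hu) (hUx u hu)) ▸ l1)
  have z6 : ∀ w, D.I w M → ζ • w = w → w = x := fun w h3 h4 => by_contra fun h5 => by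
    obtain ⟨u, hu, rfl⟩ := o2.ge ⟨h3, h5⟩
    rw [← mul_smul, ← z4 u hu, mul_smul] at h4
    refine z2 (hN ζ M fun w hw => ?_)
    by_cases h6 : w = x
    · exact h6 ▸ (hS z1).1
    · obtain ⟨v, hv, rfl⟩ := o2.ge ⟨hw, h6⟩
      rw [← mul_smul, ← z4 v hv, mul_smul, MulAction.injective u h4]
  obtain ⟨g, g1, g2⟩ := h2 x z z x hzx.symm hzx
  obtain ⟨ν, v1, v2⟩ := exists_normalizer_eq_on (s := {x, z}) hUP (g := g) (by
    rw [show fixingSubgroup G {x, z} = stabilizer G x ⊓ stabilizer G z from Subgroup.ext fun g => by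
      simp [mem_fixingSubgroup_iff]]
    exact syl x z hzx.symm hUx hUz) (by rintro _ (rfl | rfl); exacts [g1 ▸ hUz, g2 ▸ hUx])
  have v3 := (v2 x (Or.inl rfl)).trans g1
  have v4 := (v2 z (Or.inr rfl)).trans g2
  have v5 : ν • M = M := D.line_eq hzx (v3 ▸ (D.inv _ _ _).2 hx) (v4 ▸ (D.inv _ _ _).2 hz) hz hx
  have hC : ¬ IsPGroup p ↥(centralizer (U : Set G) ⊓ stabilizer G M) := fun hC => by
    obtain ⟨w, w1, w2⟩ := exists_fixed_of_not_dvd hC (s := {w | D.I w M}) (fun u hu w hw => D.smul_mem hw hu.2)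
      (by rw [D.cardL, Nat.dvd_add_right hpn, Nat.dvd_one]; exact hp.one_lt.ne')
    obtain rfl := z6 w w1 (w2 ζ ⟨z5, (hS z1).2⟩)
    have := w2 (ν * ζ * ν⁻¹) ⟨fun u hu => by
      have := z5 _ ((mem_normalizer_iff''.1 v1 u).1 hu)
      rw [← mul_left_cancel_iff (a := ν), ← mul_right_cancel_iff (a := ν⁻¹)] at this
      simpa only [mul_assoc, mul_inv_cancel_left, mul_inv_cancel, mul_one] using this,
      (stabilizer G M).mul_mem ((stabilizer G M).mul_mem v5 (hS z1).2) ((stabilizer G M).inv_mem v5)⟩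
    rw [mul_smul, mul_smul, ← eq_inv_smul_iff, inv_smul_eq_iff.2 v4.symm] at this
    exact hzx (z6 z hz this)
  obtain ⟨r, hr, r1, r2⟩ : ∃ r, r.Prime ∧ r ∣ Nat.card ↥(centralizer (U : Set G) ⊓ stabilizer G M) ∧ r ≠ p := by
    by_contra h
    push Not at h
    exact hC (IsPGroup.of_card (Nat.eq_prime_pow_of_unique_prime_dvd Nat.card_pos.ne' (h _)))
  haveI := Fact.mk hr
  obtain ⟨⟨κ, k1, k2⟩, k3⟩ := exists_prime_orderOf_dvd_card' r r1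
  rw [← orderOf_coe] at k3
  have k4 : κ ^ r = 1 := orderOf_dvd_iff_pow_eq_one.1 k3.dvd
  have k5 : κ ≠ 1 := fun e => hr.one_lt.ne' (by rw [← k3]; exact orderOf_eq_one_iff.2 e)
  have k6 : ∀ u ∈ U, ∀ w : P, κ • w = w → κ • u • w = u • w := fun u hu w h => by
    rw [← mul_smul, ← k1 u hu, mul_smul, h]
  have hrn : ¬ r ∣ D.n := fun h => r2 ((Nat.prime_dvd_prime_iff_eq hr hp).1 (hr.dvd_of_dvd_pow (hn ▸ h)))
  obtain ⟨a, a1, a2⟩ := exists_fixed_of_pow hr k4 (s := {w | ¬ D.I w M}) (fun w hw => D.smul_not_mem hw k2)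
    (by rw [D.card_off]; exact fun h => hrn (hr.dvd_of_dvd_pow h))
  obtain ⟨u, hu, u1⟩ : ∃ u ∈ U, u • a ≠ a := by simpa using np a a1
  obtain ⟨m, m1, m2⟩ := D.join' (u • a) a
  have u2 := D.smul_not_mem a1 (hUM u hu)
  obtain ⟨k, -, h3⟩ := D.exists_ord' ((cfg_or k2 u1 (k6 u hu a a2) a2 u2 a1 m1 m2).resolve_right fun h =>
    a1 (nl m (fun v hv => D.line_eq ((MulAction.injective v).ne u1) ((D.inv _ _ _).2 m1) ((D.inv _ _ _).2 m2)
      (h _ (k6 v hv _ (k6 u hu a a2)) (D.smul_not_mem u2 (hUM v hv))) (h _ (k6 v hv a a2) (D.smul_not_mem a1 (hUM v hv)))) ▸ m2))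
  have h4 : p ∣ k ^ 2 := by_contra fun h => by
    obtain ⟨w, w1, w2⟩ := exists_fixed_of_not_dvd hUP (s := {w | κ • w = w ∧ ¬ D.I w M})
      (fun v hv w hw => ⟨k6 v hv w hw.1, D.smul_not_mem hw.2 (hUM v hv)⟩) (by rwa [(h3 M k2).2])
    exact np w w1.2 w2
  obtain ⟨e, ⟨e1, e2⟩, e3⟩ := exists_fixed_of_not_dvd hUP (s := {w | κ • w = w ∧ D.I w M})
    (fun v hv w hw => ⟨k6 v hv w hw.1, D.smul_mem hw.2 (hUM v hv)⟩) (by
      rw [(h3 M k2).1, Nat.dvd_add_right (hp.dvd_of_dvd_pow h4), Nat.dvd_one]; exact hp.one_lt.ne')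
  obtain ⟨l, ⟨l1, l2⟩, l3⟩ := exists_fixed_of_pow hr k4 (s := {l | D.I e l ∧ l ≠ M})
    (fun l hl => ⟨D.smul_mem' hl.1 e1, fun h => hl.2 (MulAction.injective κ (h.trans k2.symm))⟩)
    (by rwa [show {l | D.I e l ∧ l ≠ M}.ncard = D.n from D.dual.card_diff e2])
  refine (Ce.exists_ax (D := D) (c := e) fun m hm => ?_).elim fun l h => k5 (hN κ l h)
  by_cases h : m = M
  · exact h ▸ k2
  · obtain ⟨v, hv, rfl⟩ := trU e e2 e3 l m l1 l2 hm h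
    rw [← mul_smul, ← k1 v hv, mul_smul, l3]

omit hN in
/-- A doubly transitive collineation group contains a nontrivial perspectivity. -/
theorem exists_persp (hc : D.Cfg (fun _ => True) fun _ => True) : ∃ g : G, g ≠ 1 ∧ ∃ c, D.Ce g c := by
  by_contra h
  push Not at h
  exact D.false_of_two h2 (fun g l hl => by_contra fun h1 => hl.exists_ce.elim (h g h1)) hc

end Pl

end Cfsg.Lib.Perm
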