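import Cfsg.Agent.Lib.Perm.Plane4
import Cfsg.Agent.Lib.Perm.Ito

/-!
# The Ostrom–Wagner theorem
-/

set_option autoImplicit false

namespace Cfsg.Lib.Perm.Pl

open MulAction Matrix Cfsg.Lib.Linear Submodule Projectivization

local notation "pk" => Projectivization.mk

theorem li_iff_ne {K V : Type*} [Field K] [AddCommGroup V] [Module K V] {u v : V} (hu : u ≠ 0) (hv : v ≠ 0) :
    LinearIndependent K ![u, v] ↔ pk K u hu ≠ pk K v hv := by
  rw [LinearIndependent.pair_iff' hu, ne_comm, Ne, mk_eq_mk_iff', not_exists]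

theorem exists_smul_of_span {K V : Type*} [Field K] [AddCommGroup V] [Module K V] {W : Submodule K V} {s v w : V}
    (h : s ∈ span K {v, w}) (h1 : s ∈ W) (h2 : v ∈ W) (h3 : w ∉ W) : ∃ c : K, c • v = s := by
  obtain ⟨a, b, rfl⟩ := mem_span_pair.1 h
  by_cases hb : b = 0
  · exact ⟨a, by simp [hb]⟩
  · exact absurd ((W.smul_mem_iff hb).1 ((W.add_mem_iff_right (W.smul_mem a h2)).1 h1)) h3

variable {G P L : Type*} [Group G] [MulAction G P] [MulAction G L] (D : Pl G P L) {K : Type} [Field K] {N : ℕ}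
  (E : ON.Proj G P K N)

theorem move {u v w w' : Fin N → K} {hu : u ≠ 0} {hv : v ≠ 0} {hw : w ≠ 0} (hw' : w' ≠ 0) {l : L}
    (huv : pk K u hu ≠ pk K v hv) (h1 : D.I (E.e (pk K u hu)) l) (h2 : D.I (E.e (pk K v hv)) l)
    (h3 : D.I (E.e (pk K w hw)) l) (h4 : w ∉ span K {u, v}) (h5 : w' ∉ span K {u, v}) : D.I (E.e (pk K w' hw')) l := by
  obtain ⟨φ, f1, f2, f3⟩ : ∃ φ : Fin N → K, (∀ x ∈ span K {u, v}, φ ⬝ᵥ x = 0) ∧ φ ⬝ᵥ w ≠ 0 ∧ φ ⬝ᵥ w' ≠ 0 := by
    obtain ⟨φ, f1, f2⟩ := exists_dot_of_notMem h4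
    obtain ⟨ψ, g1, g2⟩ := exists_dot_of_notMem h5
    by_cases e1 : φ ⬝ᵥ w' = 0
    · by_cases e2 : ψ ⬝ᵥ w = 0
      · exact ⟨φ + ψ, fun x hx => by simp [f1 x hx, g1 x hx], by simp [f2, e2], by simp [g2, e1]⟩
      · exact ⟨ψ, g1, e2, by simp [g2]⟩
    · exact ⟨φ, f1, by simp [f2], e1⟩
  have h6 : φ ⬝ᵥ ((φ ⬝ᵥ w')⁻¹ • w' - (φ ⬝ᵥ w)⁻¹ • w) = 0 := by simp [f2, f3]
  obtain ⟨_, e1⟩ := E.act_tv h6 hu
  obtain ⟨_, e2⟩ := E.act_tv h6 hv
  obtain ⟨h7, e3⟩ := E.act_tv h6 hw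
  simp only [f1 u (subset_span (by simp)), f1 v (subset_span (by simp)), zero_smul, add_zero] at e1 e2
  have := D.smul_mem h3 (D.fix_line (E.e.injective.ne huv) h1 h2 e1 e2)
  rwa [e3, (mk_eq_mk_iff' K _ _ h7 hw').2 ⟨φ ⬝ᵥ w * (φ ⬝ᵥ w')⁻¹, by
    rw [smul_sub, smul_inv_smul₀ f2, smul_smul, add_sub_cancel]⟩] at this

theorem mem_span_of_mem {u v w : Fin N → K} {hu : u ≠ 0} {hv : v ≠ 0} {hw : w ≠ 0} {l : L}
    (huv : pk K u hu ≠ pk K v hv) (h1 : D.I (E.e (pk K u hu)) l) (h2 : D.I (E.e (pk K v hv)) l)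
    (h3 : D.I (E.e (pk K w hw)) l) : w ∈ span K {u, v} := by
  by_contra h4
  obtain ⟨a, ha⟩ := D.exists_off l
  obtain ⟨a, rfl⟩ := E.e.surjective a
  induction a using Projectivization.ind with | h t ht => ?_
  have h5 : u ∈ span K {u, v} := subset_span (by simp)
  have h6 : t ∈ span K {u, v} := by_contra fun h => ha (D.move E ht huv h1 h2 h3 h4 h)
  have h7 : t ∈ span K {u, w} := by_contra fun h => ha (D.move E ht (fun e => by
    obtain ⟨c, rfl⟩ := (mk_eq_mk_iff' K _ _ _ _).1 e.symm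
    exact h4 (Submodule.smul_mem _ _ h5)) h1 h3 h2 (fun e => huv ((mk_eq_mk_iff' K _ _ _ _).2
      (exists_smul_of_span e (subset_span (by simp)) h5 h4)).symm) h)
  exact ha ((mk_eq_mk_iff' K _ _ ht hu).2 (exists_smul_of_span h7 h6 h5 h4) ▸ h1)

theorem mem_iff_span (hN : 3 ≤ N) {u v t : Fin N → K} {hu : u ≠ 0} {hv : v ≠ 0} (ht : t ≠ 0) {l : L}
    (huv : pk K u hu ≠ pk K v hv) (h1 : D.I (E.e (pk K u hu)) l) (h2 : D.I (E.e (pk K v hv)) l) :
    D.I (E.e (pk K t ht)) l ↔ t ∈ span K {u, v} := by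
  classical
  refine ⟨D.mem_span_of_mem E huv h1 h2, fun h => by_contra fun h3 => ?_⟩
  obtain ⟨w, h4⟩ : ∃ w, w ∉ span K {u, v} := by
    by_contra h4
    push Not at h4
    have h5 := finrank_span_finset_le_card (R := K) {u, v}
    rw [Set.finrank, Finset.coe_pair, eq_top_iff'.2 h4, finrank_top, Module.finrank_fin_fun] at h5
    have := Finset.card_le_two (a := u) (b := v)
    omega
  have hw : w ≠ 0 := fun e => h4 (e ▸ zero_mem _)
  have h5 : v ∈ span K {u, v} := subset_span (by simp)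
  obtain ⟨l', l1, l2⟩ := D.join' (E.e (pk K u hu)) (E.e (pk K t ht))
  obtain ⟨m, m1, m2⟩ := D.join' (E.e (pk K v hv)) (E.e (pk K w hw))
  obtain ⟨a, a1, a2⟩ := D.meet' l' m
  obtain ⟨a, rfl⟩ := E.e.surjective a
  induction a using Projectivization.ind with | h s hs => ?_
  have h6 := D.mem_span_of_mem E (fun e : pk K u hu = pk K t ht => h3 (e ▸ h1)) l1 l2 a1
  have h7 := D.mem_span_of_mem E (fun e : pk K v hv = pk K w hw => by
    obtain ⟨c, rfl⟩ := (mk_eq_mk_iff' K _ _ _ _).1 e.symm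
    exact h4 (Submodule.smul_mem _ _ h5)) m1 m2 a2
  rw [(mk_eq_mk_iff' K _ _ hs hv).2 (exists_smul_of_span h7 (span_le.2 (Set.insert_subset (subset_span (by simp))
    (Set.singleton_subset_iff.2 h)) h6) h5 h4)] at a1
  exact h3 (D.line_eq (E.e.injective.ne huv) l1 a1 h1 h2 ▸ l2)

include D E in
theorem dim_le : N ≤ 3 := by
  classical
  by_contra h
  obtain ⟨n, rfl⟩ : ∃ n, N = n + 4 := ⟨N - 4, by omega⟩
  have h0 : ∀ i : Fin (n + 4), (Pi.single i 1 : Fin (n + 4) → K) ≠ 0 := fun i e => by simpa using congrFun e i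
  have h1 : ∀ i j : Fin (n + 4), i ≠ j → pk K _ (h0 i) ≠ pk K _ (h0 j) := fun i j h e => by
    obtain ⟨c, hc⟩ := (mk_eq_mk_iff' K _ _ _ _).1 e
    simpa [h] using congrFun hc i
  obtain ⟨l, l1, l2⟩ := D.join' (E.e (pk K _ (h0 0))) (E.e (pk K _ (h0 1)))
  obtain ⟨m, m1, m2⟩ := D.join' (E.e (pk K _ (h0 ⟨2, by omega⟩))) (E.e (pk K _ (h0 ⟨3, by omega⟩)))
  obtain ⟨a, a1, a2⟩ := D.meet' l m
  obtain ⟨a, rfl⟩ := E.e.surjective a
  induction a using Projectivization.ind with | h s hs => ?_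
  obtain ⟨a, b, rfl⟩ := mem_span_pair.1 (D.mem_span_of_mem E (h1 _ _ (by simp)) l1 l2 a1)
  obtain ⟨c, d, e⟩ := mem_span_pair.1 (D.mem_span_of_mem E (h1 _ _ (by simp)) m1 m2 a2)
  have e0 := congrFun e 0
  have e1 := congrFun e 1
  simp [Pi.single_apply, Fin.ext_iff] at e0 e1
  exact hs (by simp [← e0, ← e1])

theorem desarguesian [Finite G] (h2 : ∀ a b c d : P, a ≠ b → c ≠ d → ∃ g : G, g • a = c ∧ g • b = d)
    (hc : D.Cfg (fun _ => True) fun _ => True) :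
    ∃ (F : Type) (_ : Field F) (_ : Fintype F) (φ : P ≃ Projectivization F (Fin 3 → F)),
      (∀ l : L, ∃ W : Submodule F (Fin 3 → F), Module.finrank F W = 2 ∧ ∀ p : P, D.I p l ↔ (φ p).submodule ≤ W) ∧
      (∀ W : Submodule F (Fin 3 → F), Module.finrank F W = 2 → ∃ l : L, ∀ p : P, D.I p l ↔ (φ p).submodule ≤ W) := by
  haveI := D.finite
  haveI := D.dual.finite
  obtain ⟨g, h1, c, h3⟩ := D.exists_persp h2 hc
  have hB : (D.sym h2).dual.NT c := by
    obtain ⟨a, ha, b, hb, h⟩ := (Set.one_lt_ncard (s := {l | D.I c l}) (Set.toFinite _)).1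
      (by rw [D.cardP]; have := D.two; omega)
    obtain ⟨a', ha', b', hb', h'⟩ := (Set.one_lt_ncard (s := {l | ¬ D.I c l}) (Set.toFinite _)).1
      (by rw [show {l | ¬ D.I c l}.ncard = D.n ^ 2 from D.dual.card_off c]; have := D.two; nlinarith)
    exact ⟨⟨a, b, h, ha, hb⟩, a', b', h', ha', hb'⟩
  obtain ⟨F, _, _, N, hN, ⟨E⟩⟩ := hB.proj D.faith' h1 h3
  obtain rfl : N = 3 := le_antisymm (D.dim_le E) hN
  have key : ∀ (u v : Fin 3 → F) (hu : u ≠ 0) (hv : v ≠ 0) (l : L), pk F u hu ≠ pk F v hv → D.I (E.e (pk F u hu)) l →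
      D.I (E.e (pk F v hv)) l → ∀ p : P, D.I p l ↔ (E.e.symm p).submodule ≤ span F {u, v} := by
    intro u v hu hv l h h1 h2 p
    obtain ⟨a, rfl⟩ := E.e.surjective p
    induction a using Projectivization.ind with | h t ht => ?_
    rw [D.mem_iff_span E hN ht h h1 h2, Equiv.symm_apply_apply, submodule_mk, span_singleton_le_iff_mem]
  refine ⟨F, inferInstance, inferInstance, E.e.symm, fun l => ?_, fun W hW => ?_⟩
  · obtain ⟨a, ha, -⟩ := D.meet' l l
    obtain ⟨b, hb, hab, -⟩ := D.exists_third l a a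
    obtain ⟨a, rfl⟩ := E.e.surjective a
    obtain ⟨b, rfl⟩ := E.e.surjective b
    induction a using Projectivization.ind with | h v hv => ?_
    induction b using Projectivization.ind with | h u hu => ?_
    have h : pk F u hu ≠ pk F v hv := fun e => hab (e ▸ rfl)
    refine ⟨_, ?_, key u v hu hv l h hb ha⟩
    have := finrank_span_eq_card ((li_iff_ne hu hv).2 h)
    rwa [Matrix.range_cons_cons_empty] at this
  · let b := Module.finBasisOfFinrankEq F W hW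
    have li := b.linearIndependent.map' W.subtype W.ker_subtype
    have hb : W.subtype ∘ b = ![(b 0).1, (b 1).1] := by
      funext i; fin_cases i <;> rfl
    have hu : (b 0).1 ≠ 0 := li.ne_zero 0
    have hv : (b 1).1 ≠ 0 := li.ne_zero 1
    have h := (li_iff_ne hu hv).1 (hb ▸ li)
    obtain ⟨l, l1, l2⟩ := D.join' (E.e (pk F _ hu)) (E.e (pk F _ hv))
    refine ⟨l, ?_⟩
    have := key _ _ hu hv l h l1 l2
    rwa [← Matrix.range_cons_cons_empty, ← hb, Set.range_comp, ← map_span, b.span_eq, map_subtype_top] at this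

end Cfsg.Lib.Perm.Pl
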